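import Cfsg.Agent.H21.SuzSection.Ops
import Cfsg.Agent.H21.SuzSection.Tables

/-! An element of order three and its action on generators of the extraspecial group. -/

set_option autoImplicit false

namespace Cfsg.Agent.H21.SuzSection

open Cfsg.Agent Finset H14

/-- Generators of the extraspecial group. -/
def yM : ℕ → Mono
  | 0 => ⟨[0, 1, 2, 3, 4, 6, 5, 7, 18, 14, 10, 23, 12, 15, 9, 13, 21, 22, 8, 20, 19, 16, 17, 11], [0, 1, 2, 3, 4, 6, 5, 7, 18, 14, 10, 23, 12, 15, 9, 13, 21, 22, 8, 20, 19, 16, 17, 11], 0⟩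
  | 1 => ⟨[0, 1, 2, 3, 4, 8, 18, 7, 5, 20, 10, 13, 12, 11, 19, 23, 17, 16, 6, 14, 9, 22, 21, 15], [0, 1, 2, 3, 4, 8, 18, 7, 5, 20, 10, 13, 12, 11, 19, 23, 17, 16, 6, 14, 9, 22, 21, 15], 0⟩
  | 2 => ⟨[0, 1, 2, 3, 4, 9, 14, 7, 20, 5, 10, 17, 12, 16, 6, 21, 13, 11, 19, 18, 8, 15, 23, 22], [0, 1, 2, 3, 4, 9, 14, 7, 20, 5, 10, 17, 12, 16, 6, 21, 13, 11, 19, 18, 8, 15, 23, 22], 0⟩
  | 3 => ⟨[0, 1, 2, 3, 4, 11, 23, 7, 13, 17, 10, 5, 12, 8, 22, 18, 20, 9, 15, 21, 16, 19, 14, 6], [0, 1, 2, 3, 4, 11, 23, 7, 13, 17, 10, 5, 12, 8, 22, 18, 20, 9, 15, 21, 16, 19, 14, 6], 0⟩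
  | 4 => ⟨[0, 1, 2, 3, 4, 5, 6, 7, 8, 9, 10, 11, 12, 13, 14, 15, 16, 17, 18, 19, 20, 21, 22, 23], [0, 1, 2, 3, 4, 5, 6, 7, 8, 9, 10, 11, 12, 13, 14, 15, 16, 17, 18, 19, 20, 21, 22, 23], 1256224⟩
  | 5 => ⟨[0, 1, 2, 3, 4, 5, 6, 7, 8, 9, 10, 11, 12, 13, 14, 15, 16, 17, 18, 19, 20, 21, 22, 23], [0, 1, 2, 3, 4, 5, 6, 7, 8, 9, 10, 11, 12, 13, 14, 15, 16, 17, 18, 19, 20, 21, 22, 23], 4038912⟩
  | 6 => ⟨[0, 1, 2, 3, 4, 5, 6, 7, 8, 9, 10, 11, 12, 13, 14, 15, 16, 17, 18, 19, 20, 21, 22, 23], [0, 1, 2, 3, 4, 5, 6, 7, 8, 9, 10, 11, 12, 13, 14, 15, 16, 17, 18, 19, 20, 21, 22, 23], 8077824⟩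
  | 7 => ⟨[0, 1, 2, 3, 4, 5, 6, 7, 8, 9, 10, 11, 12, 13, 14, 15, 16, 17, 18, 19, 20, 21, 22, 23], [0, 1, 2, 3, 4, 5, 6, 7, 8, 9, 10, 11, 12, 13, 14, 15, 16, 17, 18, 19, 20, 21, 22, 23], 1852256⟩
  | _ => ⟨List.range 24, List.range 24, 0⟩

/-- Their conjugates. -/
def zM : ℕ → Mono
  | 0 => ⟨[0, 1, 2, 3, 4, 6, 5, 7, 18, 14, 10, 23, 12, 15, 9, 13, 21, 22, 8, 20, 19, 16, 17, 11], [0, 1, 2, 3, 4, 6, 5, 7, 18, 14, 10, 23, 12, 15, 9, 13, 21, 22, 8, 20, 19, 16, 17, 11], 0⟩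
  | 1 => ⟨[0, 1, 2, 3, 4, 22, 17, 7, 21, 23, 10, 14, 12, 19, 11, 20, 18, 6, 16, 13, 15, 8, 5, 9], [0, 1, 2, 3, 4, 22, 17, 7, 21, 23, 10, 14, 12, 19, 11, 20, 18, 6, 16, 13, 15, 8, 5, 9], 5939296⟩
  | 2 => ⟨[0, 1, 2, 3, 4, 5, 6, 7, 8, 9, 10, 11, 12, 13, 14, 15, 16, 17, 18, 19, 20, 21, 22, 23], [0, 1, 2, 3, 4, 5, 6, 7, 8, 9, 10, 11, 12, 13, 14, 15, 16, 17, 18, 19, 20, 21, 22, 23], 6750560⟩
  | 3 => ⟨[0, 1, 2, 3, 4, 17, 22, 7, 16, 11, 10, 9, 12, 20, 23, 19, 8, 5, 21, 15, 13, 18, 6, 14], [0, 1, 2, 3, 4, 17, 22, 7, 16, 11, 10, 9, 12, 20, 23, 19, 8, 5, 21, 15, 13, 18, 6, 14], 6750560⟩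
  | 4 => ⟨[0, 1, 2, 3, 4, 21, 16, 7, 22, 15, 10, 19, 12, 14, 13, 9, 6, 18, 17, 11, 23, 5, 8, 20], [0, 1, 2, 3, 4, 21, 16, 7, 22, 15, 10, 19, 12, 14, 13, 9, 6, 18, 17, 11, 23, 5, 8, 20], 11952160⟩
  | 5 => ⟨[0, 1, 2, 3, 4, 21, 16, 7, 22, 15, 10, 19, 12, 14, 13, 9, 6, 18, 17, 11, 23, 5, 8, 20], [0, 1, 2, 3, 4, 21, 16, 7, 22, 15, 10, 19, 12, 14, 13, 9, 6, 18, 17, 11, 23, 5, 8, 20], 10021376⟩
  | 6 => ⟨[0, 1, 2, 3, 4, 9, 14, 7, 20, 5, 10, 17, 12, 16, 6, 21, 13, 11, 19, 18, 8, 15, 23, 22], [0, 1, 2, 3, 4, 9, 14, 7, 20, 5, 10, 17, 12, 16, 6, 21, 13, 11, 19, 18, 8, 15, 23, 22], 14919680⟩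
  | 7 => ⟨[0, 1, 2, 3, 4, 21, 16, 7, 22, 15, 10, 19, 12, 14, 13, 9, 6, 18, 17, 11, 23, 5, 8, 20], [0, 1, 2, 3, 4, 21, 16, 7, 22, 15, 10, 19, 12, 14, 13, 9, 6, 18, 17, 11, 23, 5, 8, 20], 12126304⟩
  | _ => ⟨List.range 24, List.range 24, 0⟩

/-- The involution exchanging two octads. -/
def sigM : Mono := ⟨[16, 17, 18, 11, 14, 5, 10, 19, 8, 9, 6, 3, 13, 12, 4, 15, 0, 1, 2, 7, 20, 21, 22, 23], [16, 17, 18, 11, 14, 5, 10, 19, 8, 9, 6, 3, 13, 12, 4, 15, 0, 1, 2, 7, 20, 21, 22, 23], 0⟩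

/-- The monomial part of the element of order twelve. -/
def bM : Mono := ⟨[3, 4, 12, 2, 10, 9, 19, 1, 23, 8, 7, 18, 0, 16, 6, 22, 11, 14, 13, 17, 21, 15, 20, 5], [12, 7, 3, 0, 1, 23, 14, 10, 9, 5, 4, 16, 2, 18, 17, 21, 13, 19, 11, 6, 22, 20, 15, 8], 13454845⟩

/-- A sign change. -/
def sgnM (c : ℕ) : Mono := ⟨List.range 24, List.range 24, c⟩

/-- The labels of the sextet. -/
def labL : List (Fin 6) := [0, 0, 4, 0, 4, 3, 2, 4, 3, 3, 4, 5, 0, 5, 2, 1, 5, 5, 2, 2, 3, 1, 1, 1]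

/-- The masks of the tetrads. -/
def tetM (t : Fin 6) : ℕ := [4107, 14712832, 802880, 1049376, 1172, 206848].getD t.1 0

/-- The images of the unit vectors of the coordinate space. -/
def colM : ℕ → ℕ := fun j => [1, 237, 192, 204, 255, 207, 132, 111].getD j 0

theorem lab_check : ∀ p t, (if labFun labL p = t then (1 : ZMod 2) else 0) = H12.word (tetM t) p := by
  decide +kernel

theorem card_check : ∀ t, (univ.filter fun p => labFun labL p = t).card = 4 := by decide +kernel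

theorem col_check : ∀ t u, H12.isCode (tetM t ^^^ tetM u) = true := by decide +kernel

/-- The sextet. -/
def sx : Sextet where
  lab := labFun labL
  card_fib := card_check
  col_mem t u := by
    have h := col_check t u
    have e : (fun p => (if labFun labL p = t then (1 : ZMod 2) else 0) +
        (if labFun labL p = u then 1 else 0)) = H12.word (tetM t ^^^ tetM u) := by
      rw [H12.word_xor]
      funext p
      rw [lab_check, lab_check]
      rfl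
    rw [e]
    exact (H12.word_mem_iff (H12.isCode_lt h)).2 h

theorem bM_ok : bM.ok = true := by decide +kernel

theorem sigM_ok : sigM.ok = true := by decide +kernel

theorem yM_ok : ∀ i : Fin 8, (yM i.1).ok = true := by decide +kernel

theorem zM_ok : ∀ i : Fin 8, (zM i.1).ok = true := by decide +kernel

theorem sgn_ok : ∀ c ∈ [0, 16777215, 5279, 16771936, 1009728], (sgnM c).ok = true := by
  decide +kernel

/-- The element of order twelve. -/
noncomputable def bEl : Co0 := bM.el bM_ok * sx.xiAut 1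

/-- The element of order three. -/
noncomputable def a0 : Co0 := bEl ^ 4

theorem bEl_acts : Acts bEl (bM.run ∘ xiL labL 1) :=
  (Mono.acts bM_ok).mul (xi_acts sx labL (fun _ => rfl) 1)

/-- The table of the identity. -/
def idTab : List (List ℤ) := powTab 0

theorem idTab_spec : Tab 1 idTab := fun p => by
  rw [one_act, show idTab = (List.range 24).map fun n => unitL n from rfl,
    getD_map _ _ (H12.idx_lt p), toV_unitL]

theorem pow_check : ∀ k : Fin 12,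
    ((List.range 24).map fun n => (bM.run ∘ xiL labL 1) ((powTab k.1).getD n [])) =
      powTab (k.1 + 1) := by
  decide +kernel

theorem bEl_pow : ∀ k ≤ 12, Tab (bEl ^ k) (powTab k) := by
  intro k hk
  induction k with
  | zero => rw [pow_zero]; exact idTab_spec
  | succ k ih =>
    have := bEl_acts.mul_tab (ih (by omega))
    rw [pow_check ⟨k, by omega⟩] at this
    rwa [pow_succ']

theorem a0_tab : Tab a0 (powTab 4) := bEl_pow 4 (by norm_num)

theorem a0_cube : a0 ^ 3 = 1 := by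
  rw [a0, ← pow_mul]
  exact (bEl_pow 12 le_rfl).eq idTab_spec rfl

theorem a0_ne_one : a0 ≠ 1 := by
  intro h
  have h1 : toV ((powTab 4).getD (H12.idx (H12.pt 0)) []) = toV (idTab.getD (H12.idx (H12.pt 0)) []) := by
    rw [← a0_tab, ← idTab_spec, h]
  have h2 : ∃ q : GolayPt, toV ((powTab 4).getD (H12.idx (H12.pt 0)) []) q ≠
      toV (idTab.getD (H12.idx (H12.pt 0)) []) q := by decide +kernel
  obtain ⟨q, hq⟩ := h2
  exact hq (congrFun h1 q)

/-- The table of a product with a monomial map on the right. -/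
def rightMono (m : Mono) (T : List (List ℤ)) : List (List ℤ) :=
  (List.range 24).map fun n => (List.range 24).map fun i =>
    if m.c.testBit (m.P.getD n 0) then -((T.getD (m.P.getD n 0) []).getD i 0)
    else (T.getD (m.P.getD n 0) []).getD i 0

/-- The images are the packed ones. -/
def Mono.okP (m : Mono) : Bool :=
  (List.range 24).all fun i => Nat.beq (H12.app m.pack i) (m.P.getD i 0)

theorem Tab.mul_mono {g : Co0} {T : List (List ℤ)} (hg : Tab g T) {m : Mono} (h : m.ok = true)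
    (hP : m.okP = true) : Tab (g * m.el h) (rightMono m T) := by
  intro p
  have hp := Nat.eq_of_beq_eq_true (List.all_eq_true.1 hP _ (List.mem_range.2 (H12.idx_lt p)))
  have hlt : H12.app m.pack (H12.idx p) < 24 := H12.app_lt (Mono.isPerm h) (H12.idx_lt p)
  rw [mul_act, Mono.el, act_monoAut _ _ (isLeech_eight p), permFun_eight, signFun_eight,
    Mono.perm_apply h]
  funext q
  rw [rightMono, getD_map _ _ (H12.idx_lt p), toV_map, ← hp]
  simp only [H12.word, H12.idx_pt hlt]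
  by_cases hb : m.c.testBit (H12.app m.pack (H12.idx p))
  · rw [if_pos hb, if_pos hb, if_neg one_ne_zero, act_neg _ (isLeech_eight _), hg,
      H12.idx_pt hlt]
    rfl
  · rw [if_neg hb, if_neg hb, if_pos rfl, hg, H12.idx_pt hlt]
    rfl

theorem conj_check : ∀ i : Fin 8, (yM i.1).okP = true ∧
    rightMono (yM i.1) (powTab 4) =
      ((List.range 24).map fun n => (zM i.1).run ((powTab 4).getD n [])) := by
  decide +kernel

theorem conj_y (i : Fin 8) :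
    a0 * (yM i.1).el (yM_ok i) = (zM i.1).el (zM_ok i) * a0 :=
  (a0_tab.mul_mono (yM_ok i) (conj_check i).1).eq ((Mono.acts (zM_ok i)).mul_tab a0_tab)
    (conj_check i).2

theorem commute_check :
    (sigM.okP && decide (rightMono sigM (powTab 4) =
      (List.range 24).map fun n => sigM.run ((powTab 4).getD n []))) &&
    ([5279, 1009728].all fun c => (sgnM c).okP && decide (rightMono (sgnM c) (powTab 4) =
      (List.range 24).map fun n => (sgnM c).run ((powTab 4).getD n []))) = true := by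
  decide +kernel

theorem a0_comm_sig : a0 * sigM.el sigM_ok = sigM.el sigM_ok * a0 := by
  have h := commute_check
  simp only [Bool.and_eq_true, decide_eq_true_eq] at h
  exact (a0_tab.mul_mono sigM_ok h.1.1).eq ((Mono.acts sigM_ok).mul_tab a0_tab) h.1.2

theorem a0_comm_sgn {c : ℕ} (hc : c ∈ [5279, 1009728]) (h : (sgnM c).ok = true) :
    a0 * (sgnM c).el h = (sgnM c).el h * a0 := by
  have h' := commute_check
  simp only [Bool.and_eq_true, List.all_eq_true, decide_eq_true_eq] at h'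
  exact (a0_tab.mul_mono h (h'.2 c hc).1).eq ((Mono.acts h).mul_tab a0_tab) (h'.2 c hc).2

theorem sig_sgn : sigM.el sigM_ok * (sgnM 5279).el (sgn_ok _ (by simp)) =
    (sgnM 1009728).el (sgn_ok _ (by simp)) * sigM.el sigM_ok :=
  ((Mono.acts sigM_ok).mul (Mono.acts _)).eq ((Mono.acts _).mul (Mono.acts sigM_ok))
    (by decide +kernel)

end Cfsg.Agent.H21.SuzSection
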