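import Cfsg.Agent.H21.SuzSection.Cert
import Cfsg.Agent.H18.CoOne.Data

/-! Checked facts about the monomial generators. -/

set_option autoImplicit false

namespace Cfsg.Agent.H21.SuzSection

open Cfsg.Agent Finset H14

theorem e0_table : ∀ p q : GolayPt,
    signFun (ind H18.CoOne.O) (eight p) q = toV ((sgnM 5279).run (unitL (H12.idx p))) q := by
  decide +kernel

theorem eD_table : ∀ p q : GolayPt,
    signFun (ind H18.CoOne.D) (eight p) q = toV ((sgnM 1009728).run (unitL (H12.idx p))) q := by
  decide +kernel

theorem neg_table : ∀ p q : GolayPt, -(eight p q) =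
    toV ((sgnM 16777215).run (unitL (H12.idx p))) q := by
  decide +kernel

theorem fix_check : ∀ i : Fin 8, ∀ p : GolayPt, p ∈ H18.CoOne.O →
    H12.pt (H12.app (yM i.1).pack (H12.idx p)) = p ∧ H12.word (yM i.1).c p = 0 := by
  decide +kernel

/-- Commutation of two monomial maps up to prescribed signs. -/
def commOk (f g : List ℤ → List ℤ) (b : Bool) : Bool :=
  (if b then [5279, 16771936] else [0, 16777215]).any fun c =>
    (List.range 24).all fun n =>
      decide (f (g (unitL n)) = (sgnM c).run (g (f (unitL n))))

theorem comm_check : ∀ i k : Fin 8,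
    commOk (yM i.1).run (yM k.1).run (decide (k = i + 4)) = true ∧
      commOk (zM i.1).run (yM k.1).run ((colM i.1).testBit (k + 4 : Fin 8).1) = true := by
  decide +kernel

theorem sq_check : ∀ i : Fin 8, ∃ c ∈ [0, 16777215], ((List.range 24).all fun n =>
    decide ((yM i.1).run ((yM i.1).run (unitL n)) = (sgnM c).run (unitL n))) = true := by
  decide +kernel

end Cfsg.Agent.H21.SuzSection
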