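import Cfsg.Agent.H21.SuzSection.Checks
import Cfsg.Agent.H18.CoOne.Centralizer

/-! Coordinates on the extraspecial group. -/

set_option autoImplicit false

namespace Cfsg.Agent.H21.SuzSection

open Cfsg.Agent Finset H14 H18.CoOne
open QuadraticMap (polar)

/-- The element of a sign change. -/
noncomputable abbrev sg (c : ℕ) (h : c ∈ [0, 16777215, 5279, 16771936, 1009728]) : Co0 :=
  (sgnM c).el (sgn_ok c h)

theorem sg_e0 : sg 5279 (by simp) = e0 := by
  refine eq_of_eight fun p => ?_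
  rw [← toV_unitL, Mono.acts _ _ (toV_unitL p ▸ isLeech_eight p), toV_unitL, e0,
    act_signAut _ (isLeech_eight p)]
  exact funext fun q => (e0_table p q).symm

/-- The conjugate sign change. -/
noncomputable def eD : Co0 := signAut (ind H18.CoOne.D) (octad_ind_mem D_mem)

theorem sg_eD : sg 1009728 (by simp) = eD := by
  refine eq_of_eight fun p => ?_
  rw [← toV_unitL, Mono.acts _ _ (toV_unitL p ▸ isLeech_eight p), toV_unitL, eD,
    act_signAut _ (isLeech_eight p)]
  exact funext fun q => (eD_table p q).symm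

theorem sg_negOne : sg 16777215 (by simp) = negOne := by
  refine eq_of_eight fun p => ?_
  rw [← toV_unitL, Mono.acts _ _ (toV_unitL p ▸ isLeech_eight p), toV_unitL,
    act_negOne (isLeech_eight p)]
  exact funext fun q => (neg_table p q).symm

theorem sg_one : sg 0 (by simp) = 1 :=
  (Mono.acts _).eq Acts.one (by decide +kernel)

theorem sg_negE0 : sg 16771936 (by simp) = negOne * e0 := by
  rw [← sg_negOne, ← sg_e0]
  exact (Mono.acts _).eq ((Mono.acts _).mul (Mono.acts _)) (by decide +kernel)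

/-- The central elements. -/
noncomputable def z2 (t : ZMod 2) : C1 := if t = 0 then 1 else zc

theorem z2_zero : z2 0 = 1 := if_pos rfl

theorem z2_one : z2 1 = zc := if_neg (by decide)

theorem zmod2_cases (t : ZMod 2) : t = 0 ∨ t = 1 := by revert t; decide

theorem zc_ne_one : zc ≠ (1 : C1) := fun h => zel_ne_one (congrArg Subtype.val h)

theorem zc_sq : zc * zc = (1 : C1) :=
  Subtype.ext (by show zel * zel = 1; rw [← pow_two, ← orderOf_zel, pow_orderOf_eq_one])

theorem z2_add (s t : ZMod 2) : z2 (s + t) = z2 s * z2 t := by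
  rcases zmod2_cases s with rfl | rfl <;> rcases zmod2_cases t with rfl | rfl <;>
    simp [z2, CharTwo.add_self_eq_zero, zc_sq]

theorem z2_inj {s t : ZMod 2} (h : z2 s = z2 t) : s = t := by
  rcases zmod2_cases s with rfl | rfl <;> rcases zmod2_cases t with rfl | rfl <;>
    simp [z2, zc_ne_one, Ne.symm zc_ne_one] at h ⊢

theorem z2_central (y : C1) (t : ZMod 2) : y * z2 t = z2 t * y := by
  unfold z2
  split
  · simp
  · exact zc_central y

theorem z2_mem (t : ZMod 2) : z2 t ∈ phi.ker := by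
  unfold z2
  split
  exacts [one_mem _, zc_mem]

open Classical in
/-- The commutator pairing. -/
noncomputable def cm (x y : C1) : ZMod 2 := if x * y = y * x then 0 else 1

theorem cm_spec {x y : C1} (hx : x ∈ phi.ker) (hy : y ∈ phi.ker) :
    x * y = z2 (cm x y) * (y * x) := by
  by_cases h : x * y = y * x
  · rw [cm, if_pos h, z2_zero, one_mul, h]
  · rw [cm, if_neg h, z2_one]
    rcases pair_comm x hx y hy with e | e
    · exact absurd (by rwa [mul_inv_eq_one, mul_inv_eq_iff_eq_mul] at e) h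
    · rw [mul_inv_eq_iff_eq_mul, mul_inv_eq_iff_eq_mul] at e
      rw [e, mul_assoc]

theorem cm_eq {x y : C1} (hx : x ∈ phi.ker) (hy : y ∈ phi.ker) {t : ZMod 2}
    (h : x * y = z2 t * (y * x)) : cm x y = t :=
  z2_inj (mul_right_cancel ((cm_spec hx hy).symm.trans h))

theorem cm_symm {x y : C1} (hx : x ∈ phi.ker) (hy : y ∈ phi.ker) : cm x y = cm y x := by
  refine cm_eq hx hy ?_
  rw [cm_spec hy hx, ← mul_assoc, ← z2_add, CharTwo.add_self_eq_zero, z2_zero, one_mul]

theorem cm_mul_left {x x' y : C1} (hx : x ∈ phi.ker) (hx' : x' ∈ phi.ker) (hy : y ∈ phi.ker) :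
    cm (x * x') y = cm x y + cm x' y := by
  refine cm_eq (mul_mem hx hx') hy ?_
  calc x * x' * y = x * (z2 (cm x' y) * (y * x')) := by rw [← cm_spec hx' hy, mul_assoc]
    _ = z2 (cm x' y) * (x * y) * x' := by
      simp only [← mul_assoc, z2_central x]
    _ = z2 (cm x y + cm x' y) * (y * (x * x')) := by
      rw [cm_spec hx hy, add_comm, z2_add]; simp only [mul_assoc]

theorem cm_z2 (t : ZMod 2) {y : C1} (hy : y ∈ phi.ker) : cm (z2 t) y = 0 :=
  cm_eq (z2_mem t) hy (by rw [z2_zero, one_mul, z2_central])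

theorem cm_conj {x y : C1} (hx : x ∈ phi.ker) (hy : y ∈ phi.ker) (g : C1) :
    cm (g * x * g⁻¹) (g * y * g⁻¹) = cm x y := by
  refine cm_eq ((inferInstance : phi.ker.Normal).conj_mem x hx g)
    ((inferInstance : phi.ker.Normal).conj_mem y hy g) ?_
  calc g * x * g⁻¹ * (g * y * g⁻¹) = g * (x * y) * g⁻¹ := by group
    _ = g * z2 (cm x y) * (y * x) * g⁻¹ := by rw [cm_spec hx hy]; simp only [mul_assoc]
    _ = z2 (cm x y) * (g * y * g⁻¹ * (g * x * g⁻¹)) := by rw [z2_central]; group

open Classical in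
/-- The square. -/
noncomputable def sq2 (x : C1) : ZMod 2 := if x * x = 1 then 0 else 1

theorem sq2_spec {x : C1} (hx : x ∈ phi.ker) : x * x = z2 (sq2 x) := by
  by_cases h : x * x = 1
  · rw [sq2, if_pos h, z2_zero, h]
  · rw [sq2, if_neg h, z2_one]
    exact (pair_sq x hx).resolve_left h

theorem sq2_eq {x : C1} (hx : x ∈ phi.ker) {t : ZMod 2} (h : x * x = z2 t) : sq2 x = t :=
  z2_inj ((sq2_spec hx).symm.trans h)

theorem sq2_mul {x y : C1} (hx : x ∈ phi.ker) (hy : y ∈ phi.ker) :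
    sq2 (x * y) = sq2 x + sq2 y + cm x y := by
  refine sq2_eq (mul_mem hx hy) ?_
  calc x * y * (x * y) = x * (z2 (cm x y) * (x * y)) * y := by
        rw [cm_symm hx hy, ← cm_spec hy hx]; group
    _ = z2 (cm x y) * (x * x) * (y * y) := by
        simp only [← mul_assoc, z2_central x]
    _ = z2 (sq2 x + sq2 y + cm x y) := by
        rw [sq2_spec hx, sq2_spec hy, ← z2_add, ← z2_add]; congr 1; abel

theorem sq2_z2 (t : ZMod 2) : sq2 (z2 t) = 0 := by
  refine sq2_eq (z2_mem t) ?_
  rw [← z2_add, CharTwo.add_self_eq_zero]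

/-! ### The generators -/

theorem yM_fix (i : Fin 8) : (yM i.1).perm ∈ H11.fixM24 H18.CoOne.O :=
  H11.mem_fixM24.2 ⟨Mono.perm_mem (yM_ok i), fun p hp => by
    rw [Mono.perm_apply (yM_ok i)]; exact (fix_check i p hp).1⟩

/-- The generators. -/
noncomputable def gY (i : Fin 8) : Ce :=
  ⟨(yM i.1).el (yM_ok i), mono_mem_Ce (yM_fix i) (Mono.word_mem (yM_ok i))⟩

/-- The images of the generators. -/
noncomputable def tY (i : Fin 8) : C1 := theta (gY i)

theorem tY_mem (i : Fin 8) : tY i ∈ phi.ker :=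
  mm_mem (yM_fix i) (Mono.word_mem (yM_ok i)) fun p hp => (fix_check i p hp).2

theorem a0_mem : a0 ∈ Ce := Subgroup.mem_centralizer_singleton_iff.2 (by
  rw [← sg_e0]; exact a0_comm_sgn (by simp) _)

/-- The element of order three in the centraliser of the involution. -/
noncomputable def gA : Ce := ⟨a0, a0_mem⟩

/-- Its image. -/
noncomputable def tA : C1 := theta gA

theorem gZ_eq (i : Fin 8) : (gA * gY i * gA⁻¹ : Ce).1 = (zM i.1).el (zM_ok i) := by
  show a0 * (yM i.1).el (yM_ok i) * a0⁻¹ = _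
  rw [conj_y i]; group

theorem theta_sg_zero {g : Ce} (h : g.1 = 1 ∨ g.1 = negOne) : theta g = 1 :=
  Subtype.ext (by
    show proj g.1 = 1
    rcases h with e | e
    · rw [e, map_one]
    · rw [e, proj_negOne])

theorem theta_sg_one {g : Ce} (h : g.1 = e0 ∨ g.1 = negOne * e0) : theta g = zc :=
  Subtype.ext (by
    show proj g.1 = zel
    rcases h with e | e
    · rw [e]; rfl
    · rw [e, map_mul, proj_negOne, one_mul]; rfl)

theorem commOk_spec {x y : Ce} {f g : List ℤ → List ℤ} {b : Bool} (hx : Acts x.1 f)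
    (hy : Acts y.1 g) (h : commOk f g b = true) :
    theta x * theta y = z2 (if b then 1 else 0) * (theta y * theta x) := by
  obtain ⟨c, hc, hchk⟩ := List.any_eq_true.1 h
  have hmem : c ∈ [0, 16777215, 5279, 16771936, 1009728] := by
    cases b <;> simp at hc <;> rcases hc with rfl | rfl <;> simp
  have he : x.1 * y.1 = sg c hmem * (y.1 * x.1) :=
    (hx.mul hy).eq ((Mono.acts _).mul (hy.mul hx)) hchk
  have hs : sg c hmem ∈ Ce := by
    rw [show sg c hmem = x.1 * y.1 * (y.1 * x.1)⁻¹ by rw [he]; group]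
    exact mul_mem (mul_mem x.2 y.2) (inv_mem (mul_mem y.2 x.2))
  rw [← map_mul, ← map_mul, show x * y = ⟨_, hs⟩ * (y * x) from Subtype.ext he, map_mul]
  congr 1
  cases b <;> simp at hc <;> rcases hc with rfl | rfl <;> simp [z2]
  · exact theta_sg_zero (Or.inl sg_one)
  · exact theta_sg_zero (Or.inr sg_negOne)
  · exact theta_sg_one (Or.inl sg_e0)
  · exact theta_sg_one (Or.inr sg_negE0)

theorem sq2_tY (i : Fin 8) : sq2 (tY i) = 0 := by
  refine sq2_eq (tY_mem i) ?_
  obtain ⟨c, hc, h⟩ := sq_check i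
  have hmem : c ∈ [0, 16777215, 5279, 16771936, 1009728] := by
    simp at hc; rcases hc with rfl | rfl <;> simp
  have he : (gY i * gY i : Ce).1 = sg c hmem :=
    ((Mono.acts (yM_ok i)).mul (Mono.acts (yM_ok i))).eq (Mono.acts _) h
  rw [tY, ← map_mul, z2_zero]
  simp at hc
  rcases hc with rfl | rfl
  · exact theta_sg_zero (Or.inl (he.trans sg_one))
  · exact theta_sg_zero (Or.inr (he.trans sg_negOne))

/-- The number of a coordinate. -/
def jn : J → Fin 8 := Sum.elim (fun i => ⟨i.1, by omega⟩) (fun i => ⟨i.1 + 4, by omega⟩)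

/-- The coordinate vector of a mask. -/
def vec (m : ℕ) : F8 := fun j => if m.testBit (jn j).1 then 1 else 0

/-- The coordinates. -/
noncomputable def cq (x : C1) : F8 := fun j => cm x (tY (jn j + 4))

theorem cq_tY (i : Fin 8) : cq (tY i) = fun j => if jn j = i then 1 else 0 := by
  funext j
  refine cm_eq (tY_mem i) (tY_mem _) ?_
  rw [tY, tY, commOk_spec (x := gY i) (y := gY (jn j + 4)) (Mono.acts (yM_ok i))
    (Mono.acts (yM_ok _)) (comm_check i (jn j + 4)).1]
  simp

theorem cq_tZ (i : Fin 8) : cq (tA * tY i * tA⁻¹) = vec (colM i.1) := by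
  funext j
  refine cm_eq ((inferInstance : phi.ker.Normal).conj_mem _ (tY_mem i) _) (tY_mem _) ?_
  rw [tY, tA, ← map_inv, ← map_mul, ← map_mul,
    tY, commOk_spec (x := gA * gY i * gA⁻¹) (y := gY (jn j + 4))
      (gZ_eq i ▸ Mono.acts (zM_ok i)) (Mono.acts (yM_ok _)) (comm_check i (jn j + 4)).2]
  have e : ∀ k : Fin 8, k + 4 + 4 = k := by decide
  rw [e]
  rfl

theorem cq_mul {x y : C1} (hx : x ∈ phi.ker) (hy : y ∈ phi.ker) : cq (x * y) = cq x + cq y :=
  funext fun _ => cm_mul_left hx hy (tY_mem _)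

theorem cq_z2 (t : ZMod 2) : cq (z2 t) = 0 := funext fun _ => cm_z2 t (tY_mem _)

theorem cq_one : cq 1 = 0 := z2_zero ▸ cq_z2 0

/-- The coordinate homomorphism. -/
noncomputable def cqHom : phi.ker →* Multiplicative F8 :=
  MonoidHom.mk' (fun x => Multiplicative.ofAdd (cq x.1)) fun x y => cq_mul x.2 y.2

/-- The polar form, as a plain function. -/
def pol (x y : F8) : ZMod 2 := polar (Cfsg.quadFormPlus 4 (ZMod 2)) x y

theorem pol_eq (x y : F8) : pol x y = polar Q8 x y := by rw [pol, H5.coe_qPlus]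

theorem pol_add_left (x x' y : F8) : pol (x + x') y = pol x y + pol x' y := by
  simp only [pol_eq, QuadraticMap.polar_add_left]

theorem pol_add_right (x y y' : F8) : pol x (y + y') = pol x y + pol x y' := by
  simp only [pol_eq, QuadraticMap.polar_add_right]

theorem pol_zero (y : F8) : pol 0 y = 0 := by
  simp [pol_eq]

theorem q_add (x y : F8) : Q8 (x + y) = Q8 x + Q8 y + pol x y := by
  rw [pol_eq, QuadraticMap.polar]; abel

theorem pol_single : ∀ (i : Fin 8) (v : F8),
    pol (fun j => if jn j = i then 1 else 0) v = ∑ j, if jn j = i + 4 then v j else 0 := by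
  decide +kernel

theorem q_single : ∀ i : Fin 8,
    Cfsg.quadFormPlus 4 (ZMod 2) (fun j => if jn j = i then 1 else 0) = 0 := by
  decide +kernel

theorem jn_bij : ∀ i : Fin 8, ∃ j, jn j = i := by decide

theorem add_four_four : ∀ k : Fin 8, k + 4 + 4 = k := by decide

theorem jn_inj : ∀ j k : J, jn j = jn k → j = k := by decide

/-- Elements on which the forms agree with the group operations. -/
def Good (x : C1) : Prop :=
  x ∈ phi.ker ∧ (∀ y ∈ phi.ker, cm x y = pol (cq x) (cq y)) ∧ sq2 x = Q8 (cq x)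

theorem good_mul {x y : C1} (hx : Good x) (hy : Good y) : Good (x * y) := by
  refine ⟨mul_mem hx.1 hy.1, fun w hw => ?_, ?_⟩
  · rw [cm_mul_left hx.1 hy.1 hw, cq_mul hx.1 hy.1, pol_add_left, hx.2.1 w hw, hy.2.1 w hw]
  · rw [sq2_mul hx.1 hy.1, cq_mul hx.1 hy.1, q_add, hx.2.1 y hy.1, hx.2.2, hy.2.2]

theorem good_z2 (t : ZMod 2) : Good (z2 t) :=
  ⟨z2_mem t, fun y hy => by rw [cm_z2 t hy, cq_z2, pol_zero],
    by rw [sq2_z2, cq_z2, QuadraticMap.map_zero]⟩

theorem good_tY (i : Fin 8) : Good (tY i) := by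
  refine ⟨tY_mem i, fun y hy => ?_, ?_⟩
  · obtain ⟨j, hj⟩ := jn_bij (i + 4)
    rw [cq_tY, pol_single, sum_eq_single j, if_pos hj, cq, hj, cm_symm (tY_mem i) hy]
    · rw [add_four_four]
    · intro k _ hk
      exact if_neg fun e => hk (jn_inj _ _ (e.trans hj.symm))
    · simp
  · rw [sq2_tY, cq_tY, H5.coe_qPlus, q_single]

theorem exists_good (v : F8) : ∃ x, Good x ∧ cq x = v := by
  rw [show v = ∑ j, (fun k => if jn k = jn j then v j else 0) by
    funext k
    rw [Finset.sum_apply, sum_eq_single k]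
    · simp
    · exact fun j _ hj => if_neg fun e => hj (jn_inj _ _ e).symm
    · simp]
  refine sum_induction _ (fun w => ∃ x, Good x ∧ cq x = w) ?_ ⟨z2 0, good_z2 0, cq_z2 0⟩ ?_
  · rintro a b ⟨x, hx, rfl⟩ ⟨y, hy, rfl⟩
    exact ⟨x * y, good_mul hx hy, cq_mul hx.1 hy.1⟩
  · intro j _
    rcases zmod2_cases (v j) with e | e
    · refine ⟨z2 0, good_z2 0, ?_⟩
      rw [cq_z2]
      funext k
      simp [e]
    · refine ⟨tY (jn j), good_tY _, ?_⟩
      rw [cq_tY]
      funext k
      simp [e]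

theorem cqHom_surjective : Function.Surjective cqHom := fun w => by
  obtain ⟨x, hx, e⟩ := exists_good w.toAdd
  exact ⟨⟨x, hx.1⟩, congrArg Multiplicative.ofAdd e⟩

theorem cq_eq_zero {x : C1} (hx : x ∈ phi.ker) : cq x = 0 ↔ ∃ t, x = z2 t := by
  refine ⟨fun h => ?_, by rintro ⟨t, rfl⟩; exact cq_z2 t⟩
  haveI := finite_C1
  have hc : Nat.card cqHom.ker = 2 := by
    have h1 := cqHom.ker.card_mul_index
    rw [Subgroup.index_ker, MonoidHom.range_eq_top.2 cqHom_surjective, Subgroup.card_top,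
      card_phi_ker] at h1
    have h2 : Nat.card (Multiplicative F8) = 256 := by
      rw [Nat.card_congr Multiplicative.toAdd, Nat.card_fun, Nat.card_zmod, Nat.card_sum, Nat.card_fin]; norm_num
    rw [h2] at h1
    exact Nat.eq_of_mul_eq_mul_right (by norm_num : 0 < 256) (h1.trans (by norm_num))
  have hz : (⟨zc, zc_mem⟩ : phi.ker) ∈ cqHom.ker :=
    congrArg Multiplicative.ofAdd (show cq zc = 0 by rw [← z2_one, cq_z2])
  obtain ⟨a, ha, huniq⟩ := (Nat.card_eq_two_iff' (1 : cqHom.ker)).1 hc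
  by_cases h1 : x = 1
  · exact ⟨0, h1.trans z2_zero.symm⟩
  · have e1 := huniq ⟨⟨x, hx⟩, congrArg Multiplicative.ofAdd h⟩
      (fun e => h1 (congrArg (fun w : cqHom.ker => (w : C1)) e))
    have e2 := huniq ⟨_, hz⟩ (fun e => zc_ne_one (congrArg (fun w : cqHom.ker => (w : C1)) e))
    exact ⟨1, (congrArg (fun w : cqHom.ker => (w : C1)) (e1.trans e2.symm)).trans z2_one.symm⟩

theorem cq_inj {x y : C1} (hx : x ∈ phi.ker) (hy : y ∈ phi.ker) (h : cq x = cq y) :
    ∃ t, x = z2 t * y := by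
  have : cq (x * y⁻¹) = 0 := by
    have e := cq_mul (mul_mem hx (inv_mem hy)) hy
    rw [inv_mul_cancel_right, h] at e
    exact right_eq_add.1 e
  obtain ⟨t, ht⟩ := (cq_eq_zero (mul_mem hx (inv_mem hy))).1 this
  exact ⟨t, mul_inv_eq_iff_eq_mul.1 ht⟩

theorem good_all {x : C1} (hx : x ∈ phi.ker) : Good x := by
  obtain ⟨y, hy, e⟩ := exists_good (cq x)
  obtain ⟨t, rfl⟩ := cq_inj hx hy.1 e.symm
  exact good_mul (good_z2 t) hy

theorem cm_pol {x y : C1} (hx : x ∈ phi.ker) (hy : y ∈ phi.ker) :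
    cm x y = pol (cq x) (cq y) := (good_all hx).2.1 y hy

theorem sq2_q {x : C1} (hx : x ∈ phi.ker) : sq2 x = Q8 (cq x) := (good_all hx).2.2

end Cfsg.Agent.H21.SuzSection
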