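import Cfsg.Agent.H21.SuzSection.Six
import Cfsg.Agent.H58.ExtraspecialCongr

/-! The centraliser of the element of order three modulo that element. -/

set_option autoImplicit false
set_option maxHeartbeats 1000000

namespace Cfsg.Agent.H21.SuzSection

open Cfsg.Agent Finset H14 H18.CoOne

/-- The centraliser in the first Conway group. -/
abbrev Ca : Subgroup C1 := Subgroup.centralizer ({tA} : Set C1)

theorem comm_tA {g : C1} (hg : g ∈ Ca) : g * tA = tA * g :=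
  Subgroup.mem_centralizer_singleton_iff.1 hg

theorem tA_mem : tA ∈ Ca := Subgroup.mem_centralizer_singleton_iff.2 rfl

theorem tA_cube : tA ^ 3 = 1 := by
  rw [tA, ← map_pow, show gA ^ 3 = 1 from Subtype.ext a0_cube, map_one]

theorem rho_mem_Cc {g : C1} (hg : g ∈ Ca) : rho g ∈ Cc :=
  Subgroup.mem_centralizer_singleton_iff.2 (by rw [← rho_tA, ← map_mul, ← map_mul, comm_tA hg])

/-- The action on the fixed space. -/
noncomputable def psiA : Ca →* commutator (H5.orth Q6) :=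
  (resHom.comp ((rho.comp Ca.subtype).codRestrict Cc fun g => rho_mem_Cc g.2)).codRestrict _
    fun g => resHom_mem (by
      show rho g.1 ∈ commutator (H5.orth Q8)
      rw [← range_rho]
      exact ⟨g.1, rfl⟩)

theorem psiA_apply (g : Ca) (y : F6) :
    ((psiA g : H5.orth Q6) : F6 ≃ₗ[ZMod 2] F6) y =
      prj ((rho g.1 : F8 ≃ₗ[ZMod 2] F8) (emb6 y)) := rfl

theorem psiA_tA : psiA ⟨tA, tA_mem⟩ = 1 := by
  refine Subtype.ext (H5.orth_ext fun y => ?_)
  rw [psiA_apply, rho_tA, R0_apply, rot_emb, prj_emb]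
  rfl

/-- The part of the extraspecial group. -/
noncomputable abbrev Qa : Subgroup Ca := phi.ker.subgroupOf Ca

theorem mem_Qa {x : Ca} (hx : x ∈ Qa) : (x : C1) ∈ phi.ker := hx

theorem psiA_of_mem {g : Ca} (hg : g ∈ Qa) : psiA g = 1 := by
  refine Subtype.ext (H5.orth_ext fun y => ?_)
  rw [psiA_apply, MonoidHom.mem_ker.1 (ker_le (mem_Qa hg))]
  exact prj_emb y

theorem psiA_eq_one {g : Ca} (hg : psiA g = 1) :
    ∃ n : ℕ, g * ((⟨tA, tA_mem⟩ : Ca) ^ n)⁻¹ ∈ Qa := by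
  have h := mem_zpowers_of_res (congrArg Subtype.val hg :
    resHom ⟨rho g.1, rho_mem_Cc g.2⟩ = 1)
  haveI := finite_C1
  obtain ⟨n, hn⟩ : ∃ n : ℕ, R0 ^ n = rho g.1 :=
    (mem_powers_iff_mem_zpowers.2 h)
  refine ⟨n, ?_⟩
  rw [Subgroup.mem_subgroupOf, Subgroup.coe_mul, Subgroup.coe_inv, SubmonoidClass.coe_pow,
    ← ker_rho, MonoidHom.mem_ker, map_mul, map_inv, map_pow, rho_tA, hn, mul_inv_cancel]

/-! ### The extraspecial group of order `2 ^ 7` -/

theorem cq_fixed {x : Ca} (hx : x ∈ Qa) : cq x.1 = emb6 (prj (cq x.1)) := by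
  refine rot_fixed _ ?_
  rw [← R0_apply, ← rho_tA, rho_cq tA (mem_Qa hx), ← comm_tA x.2, mul_inv_cancel_right]

theorem exists_Qa (y : F6) : ∃ x : Ca, x ∈ Qa ∧ cq x.1 = emb6 y := by
  obtain ⟨x, hx, hcq⟩ := exists_good (emb6 y)
  have h : cq (tA * x * tA⁻¹) = cq x := by
    rw [← rho_cq tA hx.1, rho_tA, R0_apply, hcq, rot_emb]
  obtain ⟨s, hs⟩ := cq_inj (conj_mem_ker hx.1 tA) hx.1 h
  have hs0 : s = 0 := by
    refine z2_inj (t := 0) ?_
    have step : ∀ t, tA * (z2 t * x) * tA⁻¹ = z2 (t + s) * x := fun t => by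
      rw [z2_add, mul_assoc (z2 t), ← hs, ← mul_assoc tA, z2_central]
      simp only [mul_assoc]
    have h2 : tA * (tA * (tA * x * tA⁻¹) * tA⁻¹) * tA⁻¹ = z2 (s + s + s) * x := by
      rw [hs, step, step]
    have h3 : tA * (tA * (tA * x * tA⁻¹) * tA⁻¹) * tA⁻¹ = x := by
      calc _ = tA ^ 3 * x * (tA ^ 3)⁻¹ := by simp only [pow_succ, pow_zero, one_mul, mul_inv_rev,
            mul_assoc]
        _ = x := by rw [tA_cube, one_mul, inv_one, mul_one]
    rw [h3] at h2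
    have h4 : z2 (s + s + s) = 1 := mul_eq_right.1 h2.symm
    rw [CharTwo.add_self_eq_zero, zero_add] at h4
    rw [h4, z2_zero]
  rw [hs0, z2_zero, one_mul] at hs
  exact ⟨⟨x, Subgroup.mem_centralizer_singleton_iff.2 (mul_inv_eq_iff_eq_mul.1 hs).symm⟩, hx.1, hcq⟩

/-- The coordinates of the extraspecial group of order `2 ^ 7`. -/
noncomputable def cqA : Qa →* Multiplicative F6 :=
  MonoidHom.mk' (fun x => Multiplicative.ofAdd (prj (cq x.1.1))) fun x y => by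
    rw [← ofAdd_add, ← prj_add, ← cq_mul (mem_Qa x.2) (mem_Qa y.2)]
    rfl

theorem zc_Ca : zc ∈ Ca := Subgroup.mem_centralizer_singleton_iff.2 (zc_central tA).symm

theorem zA_mem : (⟨zc, zc_Ca⟩ : Ca) ∈ Qa := zc_mem

theorem eq_of_cq_zero {x : Ca} (hx : x ∈ Qa) (h : prj (cq x.1) = 0) :
    x = 1 ∨ x = ⟨zc, zc_Ca⟩ := by
  have h0 : cq x.1 = 0 := by
    rw [cq_fixed hx, h]
    funext j
    simp [emb6]
  obtain ⟨t, ht⟩ := (cq_eq_zero (mem_Qa hx)).1 h0
  rcases zmod2_cases t with rfl | rfl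
  · exact Or.inl (Subtype.ext (ht.trans z2_zero))
  · exact Or.inr (Subtype.ext (ht.trans z2_one))

theorem cqA_surjective : Function.Surjective cqA := fun w => by
  obtain ⟨x, hx, hc⟩ := exists_Qa w.toAdd
  exact ⟨⟨x, hx⟩, by
    show Multiplicative.ofAdd (prj (cq x.1)) = w
    rw [hc, prj_emb, ofAdd_toAdd]⟩

theorem prj_zero : prj 0 = 0 := by
  have h := prj_add 0 0
  rw [add_zero] at h
  exact right_eq_add.1 h

theorem card_cqA_ker : Nat.card cqA.ker = 2 := by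
  haveI := finite_C1
  have hz : (⟨⟨zc, zc_Ca⟩, zA_mem⟩ : Qa) ∈ cqA.ker :=
    MonoidHom.mem_ker.2 (congrArg Multiplicative.ofAdd
      (show prj (cq zc) = 0 by rw [← z2_one, cq_z2, prj_zero]))
  refine (Nat.card_eq_two_iff' (1 : cqA.ker)).2 ⟨⟨_, hz⟩, ?_, ?_⟩
  · exact fun e => zc_ne_one (congrArg (fun w : cqA.ker => (((w : Qa) : Ca) : C1)) e)
  · rintro ⟨⟨x, hx⟩, hk⟩ hne
    rcases eq_of_cq_zero hx (Multiplicative.ofAdd.injective (MonoidHom.mem_ker.1 hk)) with e | e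
    · exact absurd (Subtype.ext (Subtype.ext e)) hne
    · exact Subtype.ext (Subtype.ext e)

theorem card_Qa : Nat.card Qa = 2 ^ 7 := by
  haveI := finite_C1
  have h := cqA.ker.card_mul_index
  rw [Subgroup.index_ker, MonoidHom.range_eq_top.2 cqA_surjective, Subgroup.card_top, card_cqA_ker,
    Nat.card_congr Multiplicative.toAdd, Nat.card_fun, Nat.card_zmod, Nat.card_sum, Nat.card_sum,
    Nat.card_fin] at h
  exact h.symm.trans (by norm_num)

theorem pol_emb_right (a b : F6) : pol (emb6 a) (emb6 b) = pol6 a b := by rw [pol_emb, prj_emb]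

theorem exists_noncomm {x : Ca} (hx : x ∈ Qa) (h : prj (cq x.1) ≠ 0) :
    ∃ y ∈ Qa, y * x * y⁻¹ * x⁻¹ = ⟨zc, zc_Ca⟩ := by
  obtain ⟨b, -, hb⟩ := exists_nonperp _ h
  obtain ⟨y, hy, hyc⟩ := exists_Qa b
  refine ⟨y, hy, Subtype.ext ?_⟩
  show y.1 * x.1 * y.1⁻¹ * x.1⁻¹ = zc
  have hc := cm_spec (mem_Qa hy) (mem_Qa hx)
  rw [cm_pol (mem_Qa hy) (mem_Qa hx), hyc, cq_fixed hx, pol_emb_right, hb, z2_one] at hc
  rw [hc]
  group

theorem extraspecial_Qa : Cfsg.IsExtraspecial 2 Qa := by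
  haveI := finite_C1
  refine H18.isExtraspecial_of_pair (z := (⟨zc, zc_Ca⟩ : Ca)) (IsPGroup.of_card card_Qa) zA_mem
    (fun e => zc_ne_one (congrArg Subtype.val e)) ?_ ?_ ?_ ?_ ?_
  · intro x hx y hy
    exact (pair_comm x.1 hx y.1 hy).imp (fun e => Subtype.ext e) fun e => Subtype.ext e
  · intro x hx
    exact (pair_sq x.1 hx).imp (fun e => Subtype.ext e) fun e => Subtype.ext e
  · intro x hx hc
    by_cases h : prj (cq x.1) = 0
    · exact eq_of_cq_zero hx h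
    · obtain ⟨y, hy, e⟩ := exists_noncomm hx h
      rw [hc y hy] at e
      exact absurd (congrArg Subtype.val (e.symm.trans (show x * y * y⁻¹ * x⁻¹ = 1 by group))) zc_ne_one
  · exact fun y _ => Subtype.ext (zc_central y.1)
  · obtain ⟨a, ha⟩ := ns6
    obtain ⟨x, hx, hc⟩ := exists_Qa a
    obtain ⟨y, hy, e⟩ := exists_noncomm hx (by
      rw [hc, prj_emb]
      rintro rfl
      simp [q6, Cfsg.quadFormMinus] at ha)
    refine ⟨y, hy, x, hx, fun h => zc_ne_one (congrArg Subtype.val (e.symm.trans ?_ : (⟨zc, zc_Ca⟩ : Ca) = 1))⟩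
    rw [h]
    group

/-! ### Surjectivity -/

theorem orderOf_tA : orderOf tA = 3 :=
  haveI : Fact (Nat.Prime 3) := ⟨Nat.prime_three⟩
  orderOf_eq_prime tA_cube fun e => rho_tA_ne_one (by rw [e, map_one])

theorem inf_zpowers : phi.ker ⊓ Subgroup.zpowers tA = ⊥ :=
  Subgroup.inf_eq_bot_of_coprime (by
    rw [card_phi_ker, Nat.card_zpowers, orderOf_tA]; norm_num)

/-- The preimage of the rotations. -/
noncomputable abbrev HA : Subgroup C1 := phi.ker ⊔ Subgroup.zpowers tA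

theorem card_sylow {y : C1} (hy : y ∈ HA) (ho : orderOf y = 3) :
    Nat.card ((Subgroup.zpowers y).subgroupOf HA) = 3 ^ (Nat.card HA).factorization 3 := by
  haveI := finite_C1
  have h3 : Nat.card ((Subgroup.zpowers y).subgroupOf HA) = 3 := by
    rw [Nat.card_congr (Subgroup.subgroupOfEquivOfLe (Subgroup.zpowers_le.2 hy)).toEquiv,
      Nat.card_zpowers, ho]
  have hd : 3 ∣ Nat.card HA := h3 ▸ Subgroup.card_subgroup_dvd_card _
  have hcard : Nat.card HA ∣ 512 * 3 := by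
    rw [← (phi.ker.subgroupOf HA).card_mul_index,
      Nat.card_congr (Subgroup.subgroupOfEquivOfLe (le_sup_left : phi.ker ≤ HA)).toEquiv, card_phi_ker,
      ← Subgroup.relIndex, Subgroup.relIndex_sup_left, ← orderOf_tA, ← Nat.card_zpowers]
    exact Nat.mul_dvd_mul (by norm_num) (Subgroup.relIndex_dvd_card _ _)
  have hle : (Nat.card HA).factorization 3 ≤ (512 * 3 : ℕ).factorization 3 :=
    (Nat.factorization_le_iff_dvd Nat.card_pos.ne' (by norm_num)).2 hcard 3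
  have h1 : (512 * 3 : ℕ).factorization 3 = 1 := by
    rw [Nat.factorization_mul (by norm_num) (by norm_num), Finsupp.add_apply,
      Nat.prime_three.factorization_self, Nat.factorization_eq_zero_of_not_dvd (by norm_num)]
  have h2 : 0 < (Nat.card HA).factorization 3 :=
    Nat.prime_three.factorization_pos_of_dvd Nat.card_pos.ne' hd
  rw [h3, show (Nat.card HA).factorization 3 = 1 by omega, pow_one]

theorem exists_adjust {g : C1} (hg : rho g * R0 = R0 * rho g) :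
    ∃ w ∈ phi.ker, ∃ n : ℤ, w * tA ^ n * g ∈ Ca := by
  haveI : Fact (Nat.Prime 3) := ⟨Nat.prime_three⟩
  haveI := finite_C1
  have hqk : g * tA * g⁻¹ * tA⁻¹ ∈ phi.ker := by
    rw [← ker_rho, MonoidHom.mem_ker, map_mul, map_mul, map_mul, map_inv, map_inv, rho_tA, hg]
    group
  have hA : tA ∈ HA := (le_sup_right : Subgroup.zpowers tA ≤ HA) (Subgroup.mem_zpowers _)
  have hB : g * tA * g⁻¹ ∈ HA := by
    rw [show g * tA * g⁻¹ = g * tA * g⁻¹ * tA⁻¹ * tA by group]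
    exact mul_mem ((le_sup_left : phi.ker ≤ HA) hqk) hA
  have hoB : orderOf (g * tA * g⁻¹) = 3 := by
    rw [show g * tA * g⁻¹ = MulAut.conj g tA from rfl, MulEquiv.orderOf_eq, orderOf_tA]
  let P1 : Sylow 3 HA := Sylow.ofCard _ (card_sylow hB hoB)
  let P2 : Sylow 3 HA := Sylow.ofCard _ (card_sylow hA orderOf_tA)
  obtain ⟨k, hk⟩ := MulAction.exists_smul_eq HA P1 P2
  have hmem : k.1 * (g * tA * g⁻¹) * k.1⁻¹ ∈ Subgroup.zpowers tA := by
    have h1 : (⟨g * tA * g⁻¹, hB⟩ : HA) ∈ (P1 : Subgroup HA) :=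
      Subgroup.mem_subgroupOf.2 (Subgroup.mem_zpowers _)
    have h2 : MulAut.conj k ⟨g * tA * g⁻¹, hB⟩ ∈ ((k • P1 : Sylow 3 HA) : Subgroup HA) :=
      ⟨_, h1, rfl⟩
    rw [hk] at h2
    exact Subgroup.mem_subgroupOf.1 h2
  obtain ⟨w, hw, u, hu, hwu⟩ := Subgroup.mem_sup_of_normal_left.1 k.2
  obtain ⟨n, rfl⟩ := Subgroup.mem_zpowers_iff.1 hu
  refine ⟨w, hw, n, ?_⟩
  rw [← hwu] at hmem
  obtain ⟨m, hm⟩ := Subgroup.mem_zpowers_iff.1 hmem
  have hr : rho (w * tA ^ n * g) * R0 = R0 * rho (w * tA ^ n * g) := by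
    rw [map_mul, map_mul, MonoidHom.mem_ker.1 (ker_le hw), one_mul, map_zpow, rho_tA, mul_assoc, hg,
      ← mul_assoc, ← mul_assoc, ((Commute.refl R0).zpow_left n).eq]
  have e : w * tA ^ n * g * tA * (w * tA ^ n * g)⁻¹ * tA⁻¹ = tA ^ (m - 1) := by
    rw [zpow_sub, zpow_one, hm]
    group
  have hk' : tA ^ (m - 1) ∈ phi.ker := by
    rw [← ker_rho, MonoidHom.mem_ker, ← e, map_mul rho _ tA⁻¹, map_mul rho (w * tA ^ n * g * tA),
      map_mul rho (w * tA ^ n * g) tA, map_inv, map_inv, rho_tA, hr]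
    group
  have h1 : tA ^ (m - 1) = 1 :=
    Subgroup.mem_bot.1 (inf_zpowers ▸ ⟨hk', Subgroup.zpow_mem _ (Subgroup.mem_zpowers _) _⟩)
  rw [← e] at h1
  exact Subgroup.mem_centralizer_singleton_iff.2
    (mul_inv_eq_iff_eq_mul.1 (mul_inv_eq_one.1 h1))

theorem psiA_surjective : Function.Surjective psiA := by
  intro s
  obtain ⟨g, hg⟩ : extHom s.1 ∈ rho.range := by
    rw [range_rho]; exact extHom_commutator s.2
  obtain ⟨w, hw, n, hmem⟩ := exists_adjust (g := g) (by rw [hg, extHom_comm])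
  refine ⟨⟨_, hmem⟩, Subtype.ext ?_⟩
  show resHom ⟨rho (w * tA ^ n * g), rho_mem_Cc hmem⟩ = s.1
  have hR : R0 ∈ Cc := Subgroup.mem_centralizer_singleton_iff.2 rfl
  have e : (⟨rho (w * tA ^ n * g), rho_mem_Cc hmem⟩ : Cc) = (⟨R0, hR⟩ : Cc) ^ n *
      ⟨extHom s.1, Subgroup.mem_centralizer_singleton_iff.2 (extHom_comm _)⟩ := Subtype.ext (by
    rw [Subgroup.coe_mul, Subgroup.coe_zpow]
    show rho (w * tA ^ n * g) = R0 ^ n * extHom s.1
    rw [map_mul, map_mul, MonoidHom.mem_ker.1 (ker_le hw), one_mul, map_zpow, rho_tA, hg])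
  rw [e, map_mul, map_zpow, resHom_ext]
  have h1 : resHom ⟨R0, hR⟩ = 1 := H5.orth_ext fun y => by
    rw [resHom_apply, R0_apply, rot_emb, prj_emb]
    rfl
  rw [h1, one_zpow, one_mul]

/-! ### Modulo the element of order three -/

/-- The cyclic group. -/
noncomputable abbrev Na : Subgroup Ca := Subgroup.zpowers ⟨tA, tA_mem⟩

instance normal_Na : Na.Normal := by
  refine ⟨fun x hx g => ?_⟩
  obtain ⟨n, rfl⟩ := Subgroup.mem_zpowers_iff.1 hx
  have h : Commute g (⟨tA, tA_mem⟩ : Ca) := Subtype.ext (comm_tA g.2)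
  rw [(h.zpow_right n).eq, mul_inv_cancel_right]
  exact Subgroup.zpow_mem _ (Subgroup.mem_zpowers _) n

/-- The section. -/
abbrev Cq : Type := Ca ⧸ Na

/-- The representation of the section. -/
noncomputable def psiQ : Cq →* commutator (H5.orth Q6) :=
  QuotientGroup.lift Na psiA (Subgroup.zpowers_le.2 (MonoidHom.mem_ker.2 psiA_tA))

theorem psiQ_surjective : Function.Surjective psiQ := fun s => by
  obtain ⟨g, hg⟩ := psiA_surjective s
  exact ⟨QuotientGroup.mk g, hg⟩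

theorem mem_kerQ {x : Cq} : x ∈ psiQ.ker ↔ ∃ g ∈ Qa, QuotientGroup.mk' Na g = x := by
  constructor
  · intro hx
    obtain ⟨g, rfl⟩ := QuotientGroup.mk'_surjective Na x
    obtain ⟨n, hn⟩ := psiA_eq_one (g := g) (MonoidHom.mem_ker.1 hx)
    refine ⟨_, hn, ?_⟩
    rw [map_mul, map_inv, map_pow, show QuotientGroup.mk' Na ⟨tA, tA_mem⟩ = 1 from
      (QuotientGroup.eq_one_iff _).2 (Subgroup.mem_zpowers _), one_pow, inv_one, mul_one]
  · rintro ⟨g, hg, rfl⟩
    exact MonoidHom.mem_ker.2 (psiA_of_mem hg)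

theorem Qa_inf_Na {g : Ca} (hg : g ∈ Qa) (hn : g ∈ Na) : g = 1 := by
  haveI := finite_C1
  have hdis : Qa ⊓ Na = ⊥ := Subgroup.inf_eq_bot_of_coprime (by
    rw [card_Qa, Nat.card_zpowers, orderOf_eq_prime (p := 3) (Subtype.ext tA_cube)
      (fun e => rho_tA_ne_one (by rw [show tA = (1 : C1) from congrArg Subtype.val e, map_one]))]
    norm_num)
  exact Subgroup.mem_bot.1 (hdis ▸ ⟨hg, hn⟩)

theorem equivQ : Nonempty (Qa ≃* psiQ.ker) := by
  refine ⟨MulEquiv.ofBijective (((QuotientGroup.mk' Na).comp Qa.subtype).codRestrict psiQ.ker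
    fun g => mem_kerQ.2 ⟨g.1, g.2, rfl⟩) ⟨?_, ?_⟩⟩
  · rw [← MonoidHom.ker_eq_bot_iff, eq_bot_iff]
    intro g hg
    have h := congrArg Subtype.val (MonoidHom.mem_ker.1 hg)
    exact Subgroup.mem_bot.2 (Subtype.ext (Qa_inf_Na g.2 ((QuotientGroup.eq_one_iff g.1).1 h)))
  · rintro ⟨x, hx⟩
    obtain ⟨g, hg, e⟩ := mem_kerQ.1 hx
    exact ⟨⟨g, hg⟩, Subtype.ext e⟩

theorem centralizer_kerQ : Subgroup.centralizer (psiQ.ker : Set Cq) ≤ psiQ.ker := by
  intro x hx
  obtain ⟨g, rfl⟩ := QuotientGroup.mk'_surjective Na x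
  refine MonoidHom.mem_ker.2 (Subtype.ext (H5.orth_ext fun y => ?_))
  show ((psiA g : H5.orth Q6) : F6 ≃ₗ[ZMod 2] F6) y = y
  obtain ⟨u, hu, huc⟩ := exists_Qa y
  have hcomm := hx _ (mem_kerQ.2 ⟨u, hu, rfl⟩)
  have hconj : g * u * g⁻¹ ∈ Qa := conj_mem_ker hu g.1
  have hone : QuotientGroup.mk' Na (g * u * g⁻¹ * u⁻¹) = 1 := by
    simp only [map_mul, map_inv, ← hcomm]
    group
  have h0 := Qa_inf_Na (mul_mem hconj (inv_mem hu)) ((QuotientGroup.eq_one_iff _).1 hone)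
  rw [mul_inv_eq_one] at h0
  rw [psiA_apply, ← huc, rho_cq g.1 (mem_Qa hu),
    show g.1 * u.1 * g.1⁻¹ = u.1 from congrArg Subtype.val h0, huc, prj_emb]

/-- The image of the central involution. -/
noncomputable def zQ : Cq := QuotientGroup.mk' Na ⟨zc, zc_Ca⟩

theorem irreducible_kerQ (W : Subgroup Cq) (hW : W.Normal) (hle : W ≤ psiQ.ker) :
    W = psiQ.ker ∨ ∀ x ∈ W, x = 1 ∨ x = zQ := by
  let W0 : Subgroup Ca := W.comap (QuotientGroup.mk' Na) ⊓ Qa
  haveI hW0 : W0.Normal := ⟨fun x hx g =>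
    ⟨(hW.comap (QuotientGroup.mk' Na)).conj_mem x hx.1 g, conj_mem_ker hx.2 g.1⟩⟩
  by_cases hne : ∃ x ∈ W0, prj (cq x.1) ≠ 0
  · left
    refine le_antisymm hle fun y hy => ?_
    obtain ⟨u, hu, rfl⟩ := mem_kerQ.1 hy
    let U : AddSubgroup F6 :=
      { carrier := {v | ∃ x ∈ W0, prj (cq x.1) = v}
        zero_mem' := ⟨1, one_mem _, by
          show prj (cq 1) = 0
          rw [cq_one, ← prj_wv 0 0]
          congr 1
          funext j
          simp [wv]⟩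
        add_mem' := by
          rintro a b ⟨x, hx, rfl⟩ ⟨x', hx', rfl⟩
          exact ⟨x * x', mul_mem hx hx', by
            rw [Subgroup.coe_mul, cq_mul (mem_Qa hx.2) (mem_Qa hx'.2), prj_add]⟩
        neg_mem' := by
          rintro a ⟨x, hx, rfl⟩
          exact ⟨x, hx, funext fun k => (ZMod.neg_eq_self_mod_two _).symm⟩ }
    have hU : ∀ v, v ∈ U := by
      refine irreducible U ?_ ?_
      · rintro s hs v ⟨x, hx, rfl⟩
        obtain ⟨g, hg⟩ := psiA_surjective ⟨s, hs⟩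
        refine ⟨g * x * g⁻¹, hW0.conj_mem x hx g, ?_⟩
        have := psiA_apply g (prj (cq x.1))
        rw [← cq_fixed hx.2, rho_cq g.1 (mem_Qa hx.2), hg] at this
        exact this.symm
      · obtain ⟨x, hx, hx0⟩ := hne
        exact ⟨_, ⟨x, hx, rfl⟩, hx0⟩
    have hzW : (⟨zc, zc_Ca⟩ : Ca) ∈ W0 := by
      obtain ⟨x, hx, hx0⟩ := hne
      obtain ⟨v, hv, e⟩ := exists_noncomm hx.2 hx0
      rw [← e]
      exact mul_mem (hW0.conj_mem x hx v) (inv_mem hx)
    obtain ⟨x, hx, hxe⟩ := hU (prj (cq u.1))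
    have h0 : prj (cq (x⁻¹ * u : Ca).1) = 0 := by
      have e := cq_mul (mem_Qa (inv_mem hx.2)) (mem_Qa hx.2)
      rw [show (x⁻¹ : Ca).1 * x.1 = 1 from inv_mul_cancel x.1, cq_one] at e
      rw [Subgroup.coe_mul, cq_mul (mem_Qa (inv_mem hx.2)) (mem_Qa hu), prj_add, ← hxe, ← prj_add, ← e, ← prj_wv 0 0]
      congr 1
      funext j
      simp [wv]
    have hmem : x⁻¹ * u ∈ W0 := by
      rcases eq_of_cq_zero (mul_mem (inv_mem hx.2) hu) h0 with e | e <;> rw [e]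
      · exact one_mem _
      · exact hzW
    have h1 : u ∈ W0 := by simpa using mul_mem hx hmem
    exact h1.1
  · right
    intro y hy
    obtain ⟨u, hu, rfl⟩ := mem_kerQ.1 (hle hy)
    have h0 : prj (cq u.1) = 0 := by
      by_contra h
      exact hne ⟨u, ⟨hy, hu⟩, h⟩
    rcases eq_of_cq_zero hu h0 with rfl | rfl
    · exact Or.inl (map_one _)
    · exact Or.inr rfl

end Cfsg.Agent.H21.SuzSection
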