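import Cfsg.Agent.H18.LargeSimple
import Cfsg.Agent.H24.Extraspecial
import Cfsg.Agent.H58.ExtraspecialCongr
import Cfsg.Agent.S5422

/-!
A group with an involution centraliser having extraspecial generalised Fitting subgroup, simple quotient and
irreducible action is simple as soon as the involution is not weakly closed.
-/

set_option autoImplicit false

namespace Cfsg.Agent.H21.SuzSection

open Subgroup
open scoped commutatorElement

/-- In an extraspecial 2-group of order at least `2^5` an index two subgroup is non-abelian. -/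
theorem not_abelian_index_two {P : Type*} [Group P] [Finite P] (hP : Cfsg.IsExtraspecial 2 P)
    (w : ℕ) (hw : 2 ≤ w) (hc : Nat.card P = 2 ^ (2 * w + 1)) (R : Subgroup P)
    (hR : 2 ^ (2 * w) ≤ Nat.card R) (hab : ∀ a ∈ R, ∀ b ∈ R, a * b = b * a) : False := by
  haveI : Fact (Nat.Prime 2) := ⟨Nat.prime_two⟩
  let A := R ⊔ Subgroup.center P
  have hA : ∀ a ∈ A, ∀ b ∈ A, a * b = b * a := by
    have hR' : R ≤ Subgroup.centralizer (R : Set P) := fun a ha b hb => hab b hb a ha
    have : A ≤ Subgroup.centralizer (A : Set P) := by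
      refine sup_le ?_ (Subgroup.center_le_centralizer _)
      rw [Subgroup.le_centralizer_iff]
      exact sup_le hR' (Subgroup.center_le_centralizer _)
    exact fun a ha b hb => (this ha b hb).symm
  have h := H24.espec_card_mul_centralizer hP (H := A) le_sup_right
  have hle : Nat.card A ≤ Nat.card (Subgroup.centralizer (A : Set P)) :=
    Subgroup.card_le_of_le fun a ha b hb => hA b hb a ha
  have hA' : 2 ^ (2 * w) ≤ Nat.card A := hR.trans (Subgroup.card_le_of_le le_sup_left)
  have h2 := Nat.mul_le_mul hA' (hA'.trans hle)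
  rw [h, hc, ← pow_add, ← pow_succ'] at h2
  have := (Nat.pow_le_pow_iff_right (by norm_num : 1 < 2)).1 h2
  omega

/-- The simplicity criterion. -/
theorem isSimpleGroup_of_large {G : Type*} [Group G] [Finite G] (z : G) (hz : orderOf z = 2)
    (Q : Subgroup (Subgroup.centralizer ({z} : Set G))) [Q.Normal]
    (hF : Cfsg.generalizedFittingSubgroup ↥(Subgroup.centralizer ({z} : Set G)) = Q)
    (hQ : Cfsg.IsExtraspecial 2 ↥Q) (w : ℕ) (hw : 2 ≤ w) (hcard : Nat.card ↥Q = 2 ^ (2 * w + 1))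
    (hnwc : ∃ g : G, (∃ hq : g * z * g⁻¹ ∈ Subgroup.centralizer ({z} : Set G),
      (⟨g * z * g⁻¹, hq⟩ : Subgroup.centralizer ({z} : Set G)) ∈ Q) ∧ g * z * g⁻¹ ≠ z)
    (hsimp : IsSimpleGroup (↥(Subgroup.centralizer ({z} : Set G)) ⧸ Q))
    (hirr : ∀ W : Subgroup (Subgroup.centralizer ({z} : Set G)), W.Normal → W ≤ Q →
      (W = Q ∨ ∀ x ∈ W, (x : G) ∈ Subgroup.zpowers z)) : IsSimpleGroup G := by
  haveI : Fact (Nat.Prime 2) := ⟨Nat.prime_two⟩
  let Qm : Subgroup G := Q.map (Subgroup.centralizer ({z} : Set G)).subtype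
  let e : ↥Q ≃* ↥Qm := Q.equivMapOfInjective _ (Subgroup.subtype_injective _)
  have hQm : Cfsg.IsExtraspecial 2 ↥Qm := H58.isExtraspecial_congr e hQ
  have hcard' : Nat.card ↥Qm = 2 ^ (2 * w + 1) := by rw [← Nat.card_congr e.toEquiv, hcard]
  have hF' : (Cfsg.generalizedFittingSubgroup ↥(Subgroup.centralizer ({z} : Set G))).map
      (Subgroup.centralizer ({z} : Set G)).subtype = Qm := by rw [hF]
  obtain ⟨-, hZ, hC, hN⟩ := H18.fstar_conditions hz hF' hQm
  have hz1 : z ≠ 1 := fun h => by rw [h, orderOf_one] at hz; omega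
  obtain ⟨g, ⟨hgC, hgQ⟩, hgne⟩ := hnwc
  have hbQ : g * z * g⁻¹ ∈ Qm := ⟨_, hgQ, rfl⟩
  set b := g * z * g⁻¹ with hb
  obtain ⟨c, -, -, -, hmem⟩ := H18.centerMap_eq_pair Qm hQm
  have hzc : z = c := ((hmem z).mp (hZ ▸ Subgroup.mem_zpowers z)).resolve_left hz1
  have hpair : ∀ x, x ∈ Subgroup.zpowers z ↔ x = 1 ∨ x = z := fun x => by rw [← hZ, hmem, hzc]
  have hbZ : b ∉ Subgroup.zpowers z := by
    rw [hpair]
    rintro (e | e)
    · exact hz1 (conj_eq_one_iff.mp e)
    · exact hgne e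
  have hlarge : Cfsg.IsLargeExtraspecial Qm := by
    refine (S5422.result Qm hQm hC hN w hw hcard' g ?_ ?_).2.2
    · rw [hZ]
      exact fun hg => hbZ ((Subgroup.mem_normalizer_iff.mp hg z).mp (Subgroup.mem_zpowers z))
    · rw [hZ, MonoidHom.map_zpowers]
      exact Subgroup.zpowers_le.mpr hbQ
  haveI : Nontrivial G := ⟨⟨z, 1, hz1⟩⟩
  refine ⟨fun N hNn => ?_⟩
  by_contra hcon
  push Not at hcon
  have hzN := H18.mem_of_normal_ne_bot hlarge hZ hz N hcon.1
  have hbN : b ∈ N := hNn.conj_mem z hzN g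
  have hQN : Q ≤ N.subgroupOf (Subgroup.centralizer ({z} : Set G)) := by
    have : (N.subgroupOf (Subgroup.centralizer ({z} : Set G)) ⊓ Q).Normal := inferInstance
    rcases hirr _ this inf_le_right with h | h
    · exact h ▸ inf_le_left
    · exact absurd (h ⟨_, hgC⟩ ⟨hbN, hgQ⟩) hbZ
  have hQmN : Qm ≤ N := by
    rintro - ⟨q, hq, rfl⟩
    exact hQN hq
  have hsup := H18.eq_top_of_sup_centralizer hlarge hZ hz N hQmN
  have hmn : ((N.subgroupOf (Subgroup.centralizer ({z} : Set G))).map (QuotientGroup.mk' Q)).Normal :=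
    Subgroup.Normal.map inferInstance _ (QuotientGroup.mk'_surjective Q)
  rcases hsimp.eq_bot_or_eq_top_of_normal _ hmn with h | h
  · rw [Subgroup.map_eq_bot_iff, QuotientGroup.ker_mk'] at h
    -- elements of `N` centralising `z`
    have hQmem : ∀ x : G, x ∈ Qm ↔ x ∈ N ∧ x * z = z * x := fun x => by
      constructor
      · rintro ⟨q, hq, rfl⟩
        exact ⟨hQN hq, Subgroup.mem_centralizer_singleton_iff.1 q.2⟩
      · rintro ⟨hx, hxz⟩
        exact ⟨⟨x, Subgroup.mem_centralizer_singleton_iff.2 hxz⟩, h hx, rfl⟩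
    have hcommQ : ∀ x ∈ Qm, ∀ y ∈ Qm, x * y * x⁻¹ * y⁻¹ = 1 ∨ x * y * x⁻¹ * y⁻¹ = z := by
      intro x hx y hy
      have hcm : (⁅(⟨x, hx⟩ : Qm), ⟨y, hy⟩⁆ : Qm) ∈ Subgroup.center Qm := by
        rw [← hQm.1.2.2]
        exact Subgroup.commutator_mem_commutator (Subgroup.mem_top _) (Subgroup.mem_top _)
      have := (hmem _).1 ⟨_, hcm, rfl⟩
      rw [← hzc] at this
      exact this
    have hb' : ∀ x ∈ Qm, x * b = b * x → g⁻¹ * x * g ∈ Qm := by
      intro x hx hxb
      refine (hQmem _).2 ⟨?_, ?_⟩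
      · have := hNn.conj_mem x (hQmN hx) g⁻¹
        simpa using this
      · calc g⁻¹ * x * g * z = g⁻¹ * (x * b) * g := by rw [hb]; group
          _ = g⁻¹ * (b * x) * g := by rw [hxb]
          _ = z * (g⁻¹ * x * g) := by rw [hb]; group
    let R : Subgroup Qm := Subgroup.centralizer ({(⟨b, hbQ⟩ : Qm)} : Set Qm)
    refine not_abelian_index_two hQm w hw hcard' R ?_ fun x hx y hy => Subtype.ext ?_
    · -- index at most two
      have hidx : R.index ≤ 2 := by
        let f : (↥Qm ⧸ R) → ({1, z} : Set G) := Quotient.lift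
          (fun x : Qm => ⟨x.1 * b * x.1⁻¹ * b⁻¹, by
            rcases hcommQ _ x.2 _ hbQ with e | e <;> simp [e]⟩)
          (fun x y hxy => by
            have hxy' : x⁻¹ * y ∈ R := QuotientGroup.leftRel_apply.1 hxy
            have h1 := congrArg Subtype.val (Subgroup.mem_centralizer_singleton_iff.1 hxy')
            refine Subtype.ext ?_
            show x.1 * b * x.1⁻¹ * b⁻¹ = y.1 * b * y.1⁻¹ * b⁻¹
            have h2 : y.1 * b * y.1⁻¹ = x.1 * b * x.1⁻¹ := by
              calc y.1 * b * y.1⁻¹ = x.1 * ((x.1⁻¹ * y.1) * b) * y.1⁻¹ := by group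
                _ = x.1 * (b * (x.1⁻¹ * y.1)) * y.1⁻¹ := by
                  simp only [Subgroup.coe_mul, Subgroup.coe_inv] at h1; rw [h1]
                _ = x.1 * b * x.1⁻¹ := by group
            rw [h2])
        have hf : Function.Injective f := by
          rintro ⟨x⟩ ⟨y⟩ he
          refine Quotient.sound (QuotientGroup.leftRel_apply.2 ?_)
          rw [Subgroup.mem_centralizer_singleton_iff]
          refine Subtype.ext ?_
          have h1 : x.1 * b * x.1⁻¹ * b⁻¹ = y.1 * b * y.1⁻¹ * b⁻¹ := congrArg Subtype.val he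
          have h2 := mul_right_cancel h1
          show x.1⁻¹ * y.1 * b = b * (x.1⁻¹ * y.1)
          calc x.1⁻¹ * y.1 * b = x.1⁻¹ * (y.1 * b * y.1⁻¹) * y.1 := by group
            _ = x.1⁻¹ * (x.1 * b * x.1⁻¹) * y.1 := by rw [h2]
            _ = b * (x.1⁻¹ * y.1) := by group
        refine (Nat.card_le_card_of_injective f hf).trans ?_
        rw [Nat.card_coe_set_eq]
        exact (Set.ncard_insert_le _ _).trans (by simp)
      have h1 := R.card_mul_index
      rw [hcard', pow_succ] at h1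
      have := Nat.mul_le_mul_left (Nat.card R) hidx
      rw [h1] at this
      omega
    · have hxb := congrArg Subtype.val (Subgroup.mem_centralizer_singleton_iff.1 hx)
      have hyb := congrArg Subtype.val (Subgroup.mem_centralizer_singleton_iff.1 hy)
      show x.1 * y.1 = y.1 * x.1
      have h1 := hcommQ _ x.2 _ y.2
      have h2 := hcommQ _ (hb' _ x.2 hxb) _ (hb' _ y.2 hyb)
      rw [show g⁻¹ * x.1 * g * (g⁻¹ * y.1 * g) * (g⁻¹ * x.1 * g)⁻¹ * (g⁻¹ * y.1 * g)⁻¹ =
        g⁻¹ * (x.1 * y.1 * x.1⁻¹ * y.1⁻¹) * g by group] at h2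
      rcases h1 with e1 | e1
      · rwa [mul_inv_eq_one, mul_inv_eq_iff_eq_mul] at e1
      rcases h2 with e2 | e2 <;> rw [e1] at e2
      · exact absurd (conj_eq_one_iff.mp (show g⁻¹ * z * g⁻¹⁻¹ = 1 by rwa [inv_inv])) hz1
      · exfalso
        refine hgne ?_
        calc g * z * g⁻¹ = g * (g⁻¹ * z * g) * g⁻¹ := by rw [e2]
          _ = z := by group
  · have hCN : (Subgroup.centralizer ({z} : Set G)) ≤ N := by
      have htop : N.subgroupOf (Subgroup.centralizer ({z} : Set G)) = ⊤ := by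
        have := congrArg (Subgroup.comap (QuotientGroup.mk' Q)) h
        rwa [Subgroup.comap_map_eq, QuotientGroup.ker_mk', Subgroup.comap_top,
          sup_eq_left.mpr hQN] at this
      exact Subgroup.subgroupOf_eq_top.1 htop
    exact hcon.2 (by rw [← hsup]; exact (sup_eq_left.mpr hCN).symm)

end Cfsg.Agent.H21.SuzSection
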