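import Cfsg.Agent.H21.SuzSection.Local
import Cfsg.Agent.H21.SuzSection.Simple
import Cfsg.Agent.H14.Co0Order

/-! The section of the automorphism group of the lattice. -/

set_option autoImplicit false
set_option maxHeartbeats 1000000

namespace Cfsg.Agent.H21.SuzSection

open Cfsg.Agent Finset H14 H18.CoOne

/-- The subgroup of order three. -/
noncomputable abbrev Asub : Subgroup Co0 := Subgroup.zpowers a0

/-- With the centre. -/
noncomputable abbrev Nc : Subgroup Co0 := Asub ⊔ Subgroup.center Co0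

/-- The centraliser. -/
noncomputable abbrev CA : Subgroup Co0 := Subgroup.centralizer (Asub : Set Co0)

theorem card_Asub : Nat.card Asub = 3 := by
  haveI : Fact (Nat.Prime 3) := ⟨Nat.prime_three⟩
  rw [Nat.card_zpowers, orderOf_eq_prime a0_cube a0_ne_one]

theorem mem_CA {x : Co0} : x ∈ CA ↔ x * a0 = a0 * x := by
  constructor
  · intro h
    exact (h a0 (Subgroup.mem_zpowers a0)).symm
  · intro h y hy
    obtain ⟨n, rfl⟩ := Subgroup.mem_zpowers_iff.1 hy
    exact ((Commute.zpow_right h n).eq).symm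

theorem Nc_central {x y : Co0} (hx : x ∈ Nc) (hy : y ∈ CA) : x * y = y * x := by
  obtain ⟨u, hu, c, hc, rfl⟩ := Subgroup.mem_sup_of_normal_right.1 hx
  rw [mul_assoc, ← Subgroup.mem_center_iff.1 hc y, ← mul_assoc, hy u hu, mul_assoc]

theorem normal_sub : (Nc.subgroupOf CA).Normal := by
  refine ⟨fun x hx g => ?_⟩
  rw [show g * x * g⁻¹ = x from Subtype.ext (by
    show g.1 * x.1 * g.1⁻¹ = x.1
    rw [← Nc_central (x := x.1) (Subgroup.mem_subgroupOf.1 hx) g.2, mul_inv_cancel_right])]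
  exact hx

theorem center_sq {c : Co0} (hc : c ∈ Subgroup.center Co0) : c * c = 1 := by
  rcases H14.mem_center_iff.1 hc with rfl | rfl
  · rw [one_mul]
  · rw [← sg_negOne, ← sg_one]
    exact ((Mono.acts _).mul (Mono.acts _)).eq (Mono.acts _) (by decide +kernel)

theorem center_of_sq {x : Co0} (hx : x ∈ Nc) (h2 : x * x = 1) : x ∈ Subgroup.center Co0 := by
  obtain ⟨u, hu, c, hc, rfl⟩ := Subgroup.mem_sup_of_normal_right.1 hx
  obtain ⟨n, rfl⟩ := Subgroup.mem_zpowers_iff.1 hu
  have e : a0 ^ n * c * (a0 ^ n * c) = a0 ^ n * a0 ^ n * (c * c) := by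
    rw [mul_assoc, ← mul_assoc c, ← Subgroup.mem_center_iff.1 hc (a0 ^ n)]
    simp only [mul_assoc]
  rw [e, center_sq hc, mul_one, ← zpow_add] at h2
  have h3 : a0 ^ (n * 3) = 1 := by
    rw [mul_comm, zpow_mul, zpow_ofNat, a0_cube, one_zpow]
  have h1 : a0 ^ n = 1 := by
    rw [show n = n * 3 + -(n + n) by ring, zpow_add, zpow_neg, h3, h2]; simp
  rwa [h1, one_mul]

/-- The section. -/
abbrev SS : Type := ↥CA ⧸ Nc.subgroupOf CA

noncomputable instance : (Nc.subgroupOf CA).Normal := normal_sub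

theorem e0_CA : e0 ∈ CA := mem_CA.2 (by rw [← sg_e0]; exact (a0_comm_sgn (by simp) _).symm)

/-- The involution of the section. -/
noncomputable def zS : SS := QuotientGroup.mk' _ ⟨e0, e0_CA⟩

theorem orderOf_zS : orderOf zS = 2 := by
  refine orderOf_eq_prime ?_ fun h => ?_
  · rw [pow_two, zS, ← map_mul]
    exact (congrArg _ (Subtype.ext e0_mul_self)).trans (map_one _)
  · have h' : (⟨e0, e0_CA⟩ : CA) ∈ Nc.subgroupOf CA := (QuotientGroup.eq_one_iff _).1 h
    exact e0_not_center (center_of_sq h' e0_mul_self)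

/-- The centraliser of the involution in the section. -/
noncomputable abbrev CS : Subgroup SS := Subgroup.centralizer ({zS} : Set SS)

/-- The common preimage. -/
noncomputable abbrev D0 : Subgroup Ce := Subgroup.centralizer ({gA} : Set Ce)

theorem D0_comm (d : D0) : (d.1.1 : Co0) * a0 = a0 * d.1.1 :=
  congrArg Subtype.val (Subgroup.mem_centralizer_singleton_iff.1 d.2)

/-- The map to the section. -/
noncomputable def toS : D0 →* CS :=
  ((QuotientGroup.mk' (Nc.subgroupOf CA)).comp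
    ((Ce.subtype.comp D0.subtype).codRestrict CA fun d => mem_CA.2 (D0_comm d))).codRestrict CS
    fun d => Subgroup.mem_centralizer_singleton_iff.2 (by
      show QuotientGroup.mk' (Nc.subgroupOf CA) ⟨d.1.1, mem_CA.2 (D0_comm d)⟩ * zS =
        zS * QuotientGroup.mk' (Nc.subgroupOf CA) ⟨d.1.1, mem_CA.2 (D0_comm d)⟩
      rw [zS, ← map_mul, ← map_mul]
      exact congrArg _ (Subtype.ext (comm_of_mem d.1.2)))

/-- The map to the local section. -/
noncomputable def toC : D0 →* Cq :=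
  (QuotientGroup.mk' Na).comp ((theta.comp D0.subtype).codRestrict Ca fun d =>
    Subgroup.mem_centralizer_singleton_iff.2 (by
      show theta d.1 * theta gA = theta gA * theta d.1
      rw [← map_mul, ← map_mul, Subgroup.mem_centralizer_singleton_iff.1 d.2]))

theorem neg_a0_cube : (negOne * a0) ^ 3 = negOne := by
  rw [(show Commute negOne a0 from (Subgroup.mem_center_iff.1 negOne_mem_center a0).symm).mul_pow, a0_cube,
    mul_one, pow_succ, pow_two, center_sq negOne_mem_center, one_mul]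

theorem toS_surjective : Function.Surjective toS := by
  rintro ⟨x, hx⟩
  obtain ⟨⟨g, hg⟩, rfl⟩ := QuotientGroup.mk'_surjective (Nc.subgroupOf CA) x
  have h := Subgroup.mem_centralizer_singleton_iff.1 hx
  rw [zS, ← map_mul, ← map_mul] at h
  have hN : g * e0 * (e0 * g)⁻¹ ∈ Nc := by
    have h1 : QuotientGroup.mk' (Nc.subgroupOf CA)
        ((⟨g, hg⟩ : CA) * ⟨e0, e0_CA⟩ * ((⟨e0, e0_CA⟩ : CA) * ⟨g, hg⟩)⁻¹) = 1 := by
      rw [map_mul, map_inv, h, mul_inv_cancel]
    have h' : (⟨g, hg⟩ : CA) * ⟨e0, e0_CA⟩ * ((⟨e0, e0_CA⟩ : CA) * ⟨g, hg⟩)⁻¹ ∈ Nc.subgroupOf CA :=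
      (QuotientGroup.eq_one_iff _).1 h1
    exact h'
  obtain ⟨u, hu, c, hc, huc⟩ := Subgroup.mem_sup_of_normal_right.1 hN
  have hconj : g * e0 * g⁻¹ = u * c * e0 := by rw [huc]; group
  have hsq : (u * c * e0) * (u * c * e0) = 1 := by
    rw [← hconj, show g * e0 * g⁻¹ * (g * e0 * g⁻¹) = g * (e0 * e0) * g⁻¹ by group, e0_mul_self]
    group
  have hcomm : e0 * (u * c) = u * c * e0 :=
    (Nc_central (mul_mem (Subgroup.mem_sup_left hu) (Subgroup.mem_sup_right hc)) e0_CA).symm
  have hsq2 : (u * c) * (u * c) = 1 := by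
    calc u * c * (u * c) = u * c * (e0 * e0) * (u * c) := by rw [e0_mul_self, mul_one]
      _ = u * c * e0 * (e0 * (u * c)) := by simp only [mul_assoc]
      _ = 1 := by rw [hcomm, hsq]
  have hz := center_of_sq (mul_mem (Subgroup.mem_sup_left hu) (Subgroup.mem_sup_right hc)) hsq2
  rcases H14.mem_center_iff.1 hz with e | e <;> rw [e] at hconj
  · rw [one_mul, mul_inv_eq_iff_eq_mul] at hconj
    exact ⟨⟨⟨g, Subgroup.mem_centralizer_singleton_iff.2 hconj⟩,
      Subgroup.mem_centralizer_singleton_iff.2 (Subtype.ext (mem_CA.1 hg))⟩, rfl⟩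
  · exact absurd (mul_inv_eq_iff_eq_mul.1 hconj) (not_neg_e0 g)

theorem toC_surjective : Function.Surjective toC := by
  intro x
  obtain ⟨y, rfl⟩ := QuotientGroup.mk'_surjective Na x
  obtain ⟨d, hd⟩ := theta_surjective y.1
  have h : theta (d * gA * d⁻¹ * gA⁻¹) = 1 := by
    rw [map_mul, map_mul, map_mul, map_inv, map_inv, hd, show theta gA = tA from rfl, comm_tA y.2]
    group
  have h1 : proj (d.1 * a0 * d.1⁻¹ * a0⁻¹) = 1 := congrArg Subtype.val h
  rcases proj_eq_one.1 h1 with e | e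
  · refine ⟨⟨d, Subgroup.mem_centralizer_singleton_iff.2 (Subtype.ext ?_)⟩, ?_⟩
    · exact mul_inv_eq_iff_eq_mul.1 (mul_inv_eq_one.1 e)
    · exact congrArg (QuotientGroup.mk' Na) (Subtype.ext hd : (⟨theta d, hd ▸ y.2⟩ : Ca) = y)
  · exfalso
    have e1 : d.1 * a0 * d.1⁻¹ = negOne * a0 := mul_inv_eq_iff_eq_mul.1 e
    have e2 := congrArg (· ^ 3) e1
    simp only [conj_pow, a0_cube, mul_one, mul_inv_cancel, neg_a0_cube] at e2
    exact negOne_ne_one e2.symm

theorem ker_eq : toS.ker = toC.ker := by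
  ext d
  rw [MonoidHom.mem_ker, MonoidHom.mem_ker, Subtype.ext_iff]
  show QuotientGroup.mk' (Nc.subgroupOf CA) ⟨d.1.1, _⟩ = 1 ↔ QuotientGroup.mk' Na ⟨theta d.1, _⟩ = 1
  rw [QuotientGroup.mk'_apply, QuotientGroup.mk'_apply, QuotientGroup.eq_one_iff,
    QuotientGroup.eq_one_iff, Subgroup.mem_subgroupOf, Subgroup.mem_zpowers_iff]
  constructor
  · intro h
    obtain ⟨u, hu, c, hc, e⟩ := Subgroup.mem_sup_of_normal_right.1 h
    obtain ⟨n, rfl⟩ := Subgroup.mem_zpowers_iff.1 hu
    refine ⟨n, Subtype.ext (Subtype.ext ?_)⟩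
    show ((tA ^ n : C1) : Spor.Co1) = proj d.1.1
    rw [tA, ← map_zpow, theta_val, Subgroup.coe_zpow, ← e, map_mul,
      show proj c = 1 from (QuotientGroup.eq_one_iff c).2 hc, mul_one]
    rfl
  · rintro ⟨n, hn⟩
    have h1 : proj (a0 ^ n) = proj d.1.1 := by
      have := congrArg (fun w : Ca => ((w : C1) : Spor.Co1)) hn
      simp only [Subgroup.coe_zpow] at this
      rw [tA, theta_val] at this
      rw [map_zpow]
      exact this
    rw [← mul_inv_cancel_left (a0 ^ n) d.1.1]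
    refine mul_mem (Subgroup.mem_sup_left (Subgroup.zpow_mem _ (Subgroup.mem_zpowers a0) n))
      (Subgroup.mem_sup_right ((QuotientGroup.eq_one_iff _).1 (?_ : proj _ = 1)))
    rw [map_mul, map_inv, h1, inv_mul_cancel]

/-- The isomorphism of the centraliser with the local section. -/
noncomputable def eqv : CS ≃* Cq :=
  (QuotientGroup.quotientKerEquivOfSurjective toS toS_surjective).symm.trans
    ((QuotientGroup.quotientMulEquivOfEq ker_eq).trans
      (QuotientGroup.quotientKerEquivOfSurjective toC toC_surjective))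

theorem eqv_toS (d : D0) : eqv (toS d) = toC d := by
  have h : (QuotientGroup.quotientKerEquivOfSurjective toS toS_surjective).symm (toS d) =
      QuotientGroup.mk d := by
    rw [MulEquiv.symm_apply_eq]; rfl
  show (QuotientGroup.quotientKerEquivOfSurjective toC toC_surjective)
    (QuotientGroup.quotientMulEquivOfEq ker_eq
      ((QuotientGroup.quotientKerEquivOfSurjective toS toS_surjective).symm (toS d))) = toC d
  rw [h]
  rfl

/-- The representation of the centraliser. -/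
noncomputable def repS : CS →* commutator (H5.orth Q6) := psiQ.comp eqv.toMonoidHom

theorem repS_surjective : Function.Surjective repS := psiQ_surjective.comp eqv.surjective

theorem mem_ker_repS {x : CS} : x ∈ repS.ker ↔ eqv x ∈ psiQ.ker := Iff.rfl

theorem extraspecial_kerS : Cfsg.IsExtraspecial 2 repS.ker ∧ Nat.card repS.ker = 2 ^ 7 := by
  obtain ⟨e⟩ := equivQ
  let f : repS.ker ≃* psiQ.ker :=
    (eqv.subgroupMap repS.ker).trans (MulEquiv.subgroupCongr (by
      ext y
      constructor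
      · rintro ⟨x, hx, rfl⟩
        exact hx
      · intro hy
        exact ⟨eqv.symm y, by show psiQ (eqv (eqv.symm y)) = 1; simpa using hy, by simp⟩))
  exact ⟨H58.isExtraspecial_congr (e.trans f.symm) extraspecial_Qa,
    (Nat.card_congr (e.trans f.symm).toEquiv).symm.trans card_Qa⟩

theorem fstar_CS : Cfsg.generalizedFittingSubgroup CS = repS.ker := by
  haveI := finite_Co0
  have e := QuotientGroup.quotientKerEquivOfSurjective repS repS_surjective
  refine H18.fstar_eq_of_simple_quotient repS.ker ?_ ?_ ?_ ?_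
  · exact (IsPGroup.of_card (p := 2) extraspecial_kerS.2).isNilpotent
  · intro x hx
    refine mem_ker_repS.2 (centralizer_kerQ fun y hy => ?_)
    obtain ⟨y, rfl⟩ := eqv.surjective y
    rw [← map_mul, ← map_mul, hx y hy]
  · haveI := simple_six
    exact e.isSimpleGroup_congr.2 inferInstance
  · intro h
    exact not_comm_six ⟨⟨fun a b => e.symm.injective (by
      rw [map_mul, map_mul]; exact h.is_comm.comm _ _)⟩⟩

/-- Ω in dimension six. -/
noncomputable def omegaS :
    CS ⧸ repS.ker ≃* Cfsg.Omega (ZMod 2) (Cfsg.quadFormMinus 2 (ZMod 2) 1 1) :=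
  (QuotientGroup.quotientKerEquivOfSurjective repS repS_surjective).trans
    (H5.omegaEquiv Q6 (H5.coe_qMinus 2 1 1)).symm

/-! ### The conjugate of the involution -/

theorem sig_CA : sigM.el sigM_ok ∈ CA := mem_CA.2 a0_comm_sig.symm

theorem eD_CA : eD ∈ CA := mem_CA.2 (by rw [← sg_eD]; exact (a0_comm_sgn (by simp) _).symm)

theorem one_fix : (1 : Equiv.Perm GolayPt) ∈ H11.fixM24 H18.CoOne.O := one_mem _

theorem eD_mono : monoAut 1 one_fix.1 (ind H18.CoOne.D) (octad_ind_mem D_mem) = eD :=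
  act_eq_of_forall fun u hu => by
    rw [eD, act_monoAut _ _ hu, act_signAut _ hu]; congr 1

theorem eD_Ce : eD ∈ Ce := eD_mono ▸ mono_mem_Ce one_fix (octad_ind_mem D_mem)

/-- The conjugate, in the common preimage. -/
noncomputable def dD : D0 :=
  ⟨⟨eD, eD_Ce⟩, Subgroup.mem_centralizer_singleton_iff.2 (Subtype.ext (mem_CA.1 eD_CA))⟩

theorem dD_ker : toS dD ∈ repS.ker := by
  rw [mem_ker_repS, eqv_toS]
  refine mem_kerQ.2 ⟨_, ?_, rfl⟩
  refine Subgroup.mem_subgroupOf.2 ?_
  show theta ⟨eD, eD_Ce⟩ ∈ phi.ker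
  have h : (⟨eD, eD_Ce⟩ : Ce) = ⟨_, mono_mem_Ce one_fix (octad_ind_mem D_mem)⟩ :=
    Subtype.ext eD_mono.symm
  rw [h]
  exact mm_mem one_fix (octad_ind_mem D_mem) fun p hp => by
    simp only [ind_apply, ite_eq_right_iff]
    exact fun h => absurd hp (D_disjoint p h)

theorem eD_ne : eD * e0 ∉ Subgroup.center Co0 := by
  intro h
  rw [H14.mem_center_iff, ← sg_eD, ← sg_e0, ← sg_one, ← sg_negOne] at h
  have key : ∀ c ∈ [0, 16777215], ∃ p : GolayPt, ∃ q : GolayPt,
      toV ((sgnM 1009728).run ((sgnM 5279).run (unitL (H12.idx p)))) q ≠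
        toV ((sgnM c).run (unitL (H12.idx p))) q := by decide +kernel
  have hD : 1009728 ∈ [0, 16777215, 5279, 16771936, 1009728] := by simp
  have hO : 5279 ∈ [0, 16777215, 5279, 16771936, 1009728] := by simp
  have hL : Acts (sg 1009728 hD * sg 5279 hO) ((sgnM 1009728).run ∘ (sgnM 5279).run) :=
    (Mono.acts _).mul (Mono.acts _)
  have main : ∀ c, ∀ hc : c ∈ [0, 16777215, 5279, 16771936, 1009728], c ∈ [0, 16777215] →
      sg 1009728 hD * sg 5279 hO ≠ sg c hc := by
    intro c hc hc2 e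
    obtain ⟨p, q, hne⟩ := key c hc2
    have hu : IsLeech (toV (unitL (H12.idx p))) := toV_unitL p ▸ isLeech_eight p
    exact hne (congrFun ((hL _ hu).symm.trans ((congrArg (fun k => act k _) e).trans
      (Mono.acts (sgn_ok c hc) _ hu))) q)
  rcases h with e | e
  · exact main 0 (by simp) (by simp) e
  · exact main 16777215 (by simp) (by simp) e

theorem exists_conj_S : ∃ g : SS, (∃ hq : g * zS * g⁻¹ ∈ CS,
    (⟨g * zS * g⁻¹, hq⟩ : CS) ∈ repS.ker) ∧ g * zS * g⁻¹ ≠ zS := by
  have hc : QuotientGroup.mk' (Nc.subgroupOf CA) ⟨sigM.el sigM_ok, sig_CA⟩ * zS *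
      (QuotientGroup.mk' (Nc.subgroupOf CA) ⟨sigM.el sigM_ok, sig_CA⟩)⁻¹ = (toS dD : SS) := by
    rw [mul_inv_eq_iff_eq_mul]
    show _ = QuotientGroup.mk' (Nc.subgroupOf CA) ⟨eD, eD_CA⟩ * _
    rw [zS, ← map_mul, ← map_mul]
    refine congrArg _ (Subtype.ext ?_)
    show sigM.el sigM_ok * e0 = eD * sigM.el sigM_ok
    rw [← sg_e0, ← sg_eD]
    exact sig_sgn
  refine ⟨QuotientGroup.mk' _ ⟨sigM.el sigM_ok, sig_CA⟩, ⟨hc ▸ (toS dD).2, ?_⟩, ?_⟩
  · rw [show (⟨_, hc ▸ (toS dD).2⟩ : CS) = toS dD from Subtype.ext hc]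
    exact dD_ker
  · rw [hc]
    intro h
    have h1 : QuotientGroup.mk' (Nc.subgroupOf CA) ((⟨eD, eD_CA⟩ : CA) * ⟨e0, e0_CA⟩) = 1 := by
      rw [map_mul]
      show (toS dD : SS) * zS = 1
      rw [h, ← pow_two, ← orderOf_zS, pow_orderOf_eq_one]
    have h' : (⟨eD, eD_CA⟩ : CA) * ⟨e0, e0_CA⟩ ∈ Nc.subgroupOf CA :=
      (QuotientGroup.eq_one_iff _).1 h1
    have hm : eD * e0 ∈ Nc := h'
    have hsq : eD * e0 * (eD * e0) = 1 := by
      rw [← sg_eD, ← sg_e0, ← sg_one]
      exact (((Mono.acts _).mul (Mono.acts _)).mul ((Mono.acts _).mul (Mono.acts _))).eq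
        (Mono.acts _) (by decide +kernel)
    exact eD_ne (center_of_sq hm hsq)

theorem zS_mem : zS ∈ CS := Subgroup.mem_centralizer_singleton_iff.2 rfl

/-- The involution in the common preimage. -/
noncomputable def d0 : D0 :=
  ⟨⟨e0, Subgroup.mem_centralizer_singleton_iff.2 rfl⟩,
    Subgroup.mem_centralizer_singleton_iff.2 (Subtype.ext (mem_CA.1 e0_CA))⟩

theorem eqv_zS : eqv ⟨zS, zS_mem⟩ = zQ := by
  rw [show (⟨zS, zS_mem⟩ : CS) = toS d0 from rfl, eqv_toS]
  rfl

theorem irreducible_S (W : Subgroup CS) (hW : W.Normal) (hle : W ≤ repS.ker) :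
    W = repS.ker ∨ ∀ x ∈ W, (x : SS) ∈ Subgroup.zpowers zS := by
  have hWm : (W.map eqv.toMonoidHom).Normal := hW.map _ eqv.surjective
  rcases irreducible_kerQ _ hWm (by rintro - ⟨x, hx, rfl⟩; exact hle hx) with h | h
  · left
    ext x
    rw [mem_ker_repS, ← h]
    exact ⟨fun hx => ⟨x, hx, rfl⟩, fun ⟨y, hy, e⟩ => eqv.injective e ▸ hy⟩
  · right
    intro x hx
    rcases h _ ⟨x, hx, rfl⟩ with e | e
    · rw [show x = 1 from eqv.injective (e.trans (map_one eqv).symm)]
      exact one_mem _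
    · rw [show x = ⟨zS, zS_mem⟩ from eqv.injective (e.trans eqv_zS.symm)]
      exact Subgroup.mem_zpowers zS

theorem simple_SS : IsSimpleGroup SS := by
  haveI := finite_Co0
  refine isSimpleGroup_of_large zS orderOf_zS repS.ker fstar_CS extraspecial_kerS.1 3 (by norm_num)
    extraspecial_kerS.2 exists_conj_S ?_ irreducible_S
  haveI := simple_six
  exact (QuotientGroup.quotientKerEquivOfSurjective repS repS_surjective).isSimpleGroup_congr.2
    inferInstance

theorem not_comm_SS : ¬ IsMulCommutative SS := by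
  intro h
  obtain ⟨g, -, hne⟩ := exists_conj_S
  exact hne (by rw [h.is_comm.comm g zS, mul_inv_cancel_right])

end Cfsg.Agent.H21.SuzSection
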