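import Cfsg.Agent.H18.CoOne.Action

/-! Evaluation of monomial maps and sextet maps on coordinate lists. -/

set_option autoImplicit false

namespace Cfsg.Agent.H21.SuzSection

open Cfsg.Agent Finset H14

/-- The vector of a coordinate list. -/
def toV (l : List ℤ) : V := fun p => l.getD (H12.idx p) 0

/-- The list of a coordinate vector. -/
def unitL (n : ℕ) : List ℤ := (List.range 24).map fun i => if Nat.beq i n then 8 else 0

theorem unit_all : ∀ p q : GolayPt, toV (unitL (H12.idx p)) q = eight p q := by decide +kernel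

theorem toV_unitL (p : GolayPt) : toV (unitL (H12.idx p)) = eight p := funext (unit_all p)

theorem getD_map {α : Type*} (f : ℕ → α) (d : α) {i : ℕ} (hi : i < 24) :
    ((List.range 24).map f).getD i d = f i := by
  simp [List.getD_eq_getElem?_getD, List.getElem?_map, List.getElem?_range hi]

theorem toV_map (f : ℕ → ℤ) (p : GolayPt) :
    toV ((List.range 24).map f) p = f (H12.idx p) := getD_map f 0 (H12.idx_lt p)

/-- An element acts as a map of lists. -/
def Acts (g : Co0) (f : List ℤ → List ℤ) : Prop :=
  ∀ l, IsLeech (toV l) → act g (toV l) = toV (f l)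

theorem Acts.mul {g h : Co0} {f k : List ℤ → List ℤ} (hg : Acts g f) (hh : Acts h k) :
    Acts (g * h) (f ∘ k) := fun l hl => by
  have hk := hh l hl
  rw [mul_act, hk]
  exact hg _ (hk ▸ isLeech_act h hl)

theorem Acts.one : Acts 1 id := fun _ _ => one_act _

/-- Lattice automorphisms are determined by the images of the coordinate vectors. -/
theorem eq_of_eight {g h : Co0} (e : ∀ p, act g (eight p) = act h (eight p)) : g = h := by
  refine act_eq_of_forall fun x hx => ?_
  have key : act g⁻¹ (act h x) = x := by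
    funext p
    have h1 := dotInt_act g (isLeech_act g⁻¹ (isLeech_act h hx)) (isLeech_eight p)
    rw [act_inv_act, e p, dotInt_act h hx (isLeech_eight p), dotInt_eight, dotInt_eight] at h1
    simpa [eight] using h1.symm
  conv_lhs => rw [← key, act_inv_act]

/-- The table of images of the coordinate vectors. -/
def Tab (g : Co0) (T : List (List ℤ)) : Prop :=
  ∀ p, act g (eight p) = toV (T.getD (H12.idx p) [])

theorem Tab.eq {g h : Co0} {T U : List (List ℤ)} (hg : Tab g T) (hh : Tab h U) (e : T = U) :
    g = h := eq_of_eight fun p => by rw [hg p, hh p, e]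

theorem Tab.isLeech {g : Co0} {T : List (List ℤ)} (hg : Tab g T) (p : GolayPt) :
    IsLeech (toV (T.getD (H12.idx p) [])) := hg p ▸ isLeech_act g (isLeech_eight p)

theorem Acts.tab {g : Co0} {f : List ℤ → List ℤ} (hg : Acts g f) :
    Tab g ((List.range 24).map fun n => f (unitL n)) := fun p => by
  rw [getD_map _ _ (H12.idx_lt p), ← hg _ (toV_unitL p ▸ isLeech_eight p), toV_unitL]

theorem Acts.mul_tab {g h : Co0} {f : List ℤ → List ℤ} {T : List (List ℤ)} (hg : Acts g f)
    (hh : Tab h T) : Tab (g * h) ((List.range 24).map fun n => f (T.getD n [])) := fun p => by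
  rw [mul_act, hh p, hg _ (hh.isLeech p), getD_map _ _ (H12.idx_lt p)]

theorem Acts.eq {g h : Co0} {f k : List ℤ → List ℤ} (hg : Acts g f) (hh : Acts h k)
    (e : ((List.range 24).all fun n => decide (f (unitL n) = k (unitL n))) = true) : g = h := by
  refine eq_of_eight fun p => ?_
  rw [hg.tab p, hh.tab p, getD_map _ _ (H12.idx_lt p), getD_map _ _ (H12.idx_lt p),
    of_decide_eq_true (List.all_eq_true.1 e _ (List.mem_range.2 (H12.idx_lt p)))]

/-- A monomial map given by the list of images, the list of preimages and a sign mask. -/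
structure Mono where
  /-- Images of the points. -/
  P : List ℕ
  /-- Preimages of the points. -/
  Q : List ℕ
  /-- The sign mask. -/
  c : ℕ

/-- The packed permutation. -/
def Mono.pack (m : Mono) : ℕ :=
  (List.range 24).foldl (fun acc i => acc + Nat.shiftLeft (m.P.getD i 0) (5 * i)) 0

/-- The consistency check of a monomial map. -/
def Mono.ok (m : Mono) : Bool :=
  H12.fixesCode m.pack && H12.isCode m.c &&
    (List.range 24).all fun i =>
      decide (m.Q.getD i 0 < 24) && Nat.beq (H12.app m.pack (m.Q.getD i 0)) i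

/-- The permutation. -/
noncomputable def Mono.perm (m : Mono) : Equiv.Perm GolayPt := H12.permOf m.pack

theorem Mono.ok_spec {m : Mono} (h : m.ok = true) :
    H12.fixesCode m.pack = true ∧ H12.isCode m.c = true ∧
      ∀ i < 24, m.Q.getD i 0 < 24 ∧ H12.app m.pack (m.Q.getD i 0) = i := by
  simp only [Mono.ok, Bool.and_eq_true, List.all_eq_true, decide_eq_true_eq, List.mem_range] at h
  exact ⟨h.1.1, h.1.2, fun i hi => ⟨(h.2 i hi).1, Nat.eq_of_beq_eq_true (h.2 i hi).2⟩⟩

theorem Mono.isPerm {m : Mono} (h : m.ok = true) : H12.isPerm m.pack = true := by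
  have := (Mono.ok_spec h).1
  rw [H12.fixesCode, Bool.and_eq_true] at this
  exact this.1

theorem Mono.perm_mem {m : Mono} (h : m.ok = true) : m.perm ∈ M24 :=
  H12.permOf_mem_M24 (Mono.ok_spec h).1

theorem Mono.word_mem {m : Mono} (h : m.ok = true) : H12.word m.c ∈ golayCode :=
  (H12.word_mem_iff (H12.isCode_lt (Mono.ok_spec h).2.1)).2 (Mono.ok_spec h).2.1

theorem Mono.perm_apply {m : Mono} (h : m.ok = true) (p : GolayPt) :
    m.perm p = H12.pt (H12.app m.pack (H12.idx p)) := H12.permOf_apply (Mono.isPerm h) p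

theorem Mono.perm_symm {m : Mono} (h : m.ok = true) (p : GolayPt) :
    m.perm.symm p = H12.pt (m.Q.getD (H12.idx p) 0) := by
  obtain ⟨h1, h2⟩ := (Mono.ok_spec h).2.2 _ (H12.idx_lt p)
  rw [Equiv.symm_apply_eq, Mono.perm_apply h, H12.idx_pt h1, h2, H12.pt_idx]

/-- The element of the automorphism group. -/
noncomputable def Mono.el (m : Mono) (h : m.ok = true) : Co0 :=
  monoAut m.perm (Mono.perm_mem h) (H12.word m.c) (Mono.word_mem h)

/-- The map on lists. -/
def Mono.run (m : Mono) (l : List ℤ) : List ℤ :=
  (List.range 24).map fun i =>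
    if m.c.testBit i then -(l.getD (m.Q.getD i 0) 0) else l.getD (m.Q.getD i 0) 0

theorem Mono.acts {m : Mono} (h : m.ok = true) : Acts (m.el h) m.run := fun l hl => by
  rw [Mono.el, act_monoAut _ _ hl]
  funext p
  rw [Mono.run, toV_map]
  simp only [signFun, permFun, Mono.perm_symm h, toV,
    H12.idx_pt ((Mono.ok_spec h).2.2 _ (H12.idx_lt p)).1, H12.word]
  by_cases hb : m.c.testBit (H12.idx p) <;> simp [hb]

/-- The label of a point from a list of labels. -/
def labFun (lab : List (Fin 6)) (p : GolayPt) : Fin 6 := lab.getD (H12.idx p) 0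

/-- The sextet map on lists. -/
def xiL (lab : List (Fin 6)) (n : Fin 6) (l : List ℤ) : List ℤ :=
  (List.range 24).map fun i =>
    (if lab.getD i 0 = n then -1 else 1) * (l.getD i 0 - (((List.range 24).filter fun j =>
      decide (lab.getD j 0 = lab.getD i 0)).map fun j => l.getD j 0).sum / 2)

theorem sum_filter_pt (f : ℕ → ℤ) (P : ℕ → Prop) [DecidablePred P] :
    ∑ p ∈ univ.filter (fun p : GolayPt => P (H12.idx p)), f (H12.idx p) =
      (((List.range 24).filter fun j => decide (P j)).map f).sum := by
  rw [← List.sum_toFinset _ (List.nodup_range.filter _)]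
  refine sum_bij (fun p _ => H12.idx p) ?_ ?_ ?_ fun _ _ => rfl
  · intro p hp
    simp [(mem_filter.1 hp).2, H12.idx_lt p]
  · exact fun a _ b _ e => H12.idx_injective e
  · intro j hj
    simp only [List.mem_toFinset, List.mem_filter, List.mem_range, decide_eq_true_eq] at hj
    exact ⟨H12.pt j, by simp [H12.idx_pt hj.1, hj.2], H12.idx_pt hj.1⟩

theorem xi_acts (S : Sextet) (lab : List (Fin 6)) (hlab : ∀ p, S.lab p = labFun lab p) (n : Fin 6) :
    Acts (S.xiAut n) (xiL lab n) := fun l hl => by
  rw [act_xiAut S n hl]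
  funext p
  rw [xiL, toV_map]
  unfold Sextet.xiFun Sextet.fsum
  simp only [hlab, labFun, toV]
  rw [sum_filter_pt (fun j => l.getD j 0) fun j => lab.getD j 0 = lab.getD (H12.idx p) 0]

end Cfsg.Agent.H21.SuzSection
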