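import Cfsg.Agent.H21.SuzSection.Coord
import Cfsg.Agent.H5.Reflection

/-! The action on the coordinates and the fixed space of the element of order three. -/

set_option autoImplicit false

namespace Cfsg.Agent.H21.SuzSection

open Cfsg.Agent Finset H14 H18.CoOne

/-- A member with given coordinates. -/
noncomputable def sec (v : F8) : C1 := (exists_good v).choose

theorem sec_mem (v : F8) : sec v ∈ phi.ker := (exists_good v).choose_spec.1.1

theorem cq_sec (v : F8) : cq (sec v) = v := (exists_good v).choose_spec.2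

theorem conj_mem_ker {x : C1} (hx : x ∈ phi.ker) (g : C1) : g * x * g⁻¹ ∈ phi.ker :=
  (inferInstance : phi.ker.Normal).conj_mem x hx g

/-- The induced map. -/
noncomputable def rhoFun (g : C1) (v : F8) : F8 := cq (g * sec v * g⁻¹)

theorem rhoFun_cq (g : C1) {x : C1} (hx : x ∈ phi.ker) : rhoFun g (cq x) = cq (g * x * g⁻¹) := by
  obtain ⟨t, ht⟩ := cq_inj (sec_mem (cq x)) hx (cq_sec _)
  have : g * (z2 t * x) * g⁻¹ = z2 t * (g * x * g⁻¹) := by
    rw [← mul_assoc g, z2_central]; group
  rw [rhoFun, ht, this, cq_mul (z2_mem t) (conj_mem_ker hx g), cq_z2, zero_add]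

theorem rhoFun_mul (g h : C1) (v : F8) : rhoFun (g * h) v = rhoFun g (rhoFun h v) := by
  rw [rhoFun.eq_1 h, rhoFun_cq g (conj_mem_ker (sec_mem v) h), rhoFun]
  congr 1
  group

theorem rhoFun_one (v : F8) : rhoFun 1 v = v := by simp [rhoFun, cq_sec]

theorem rhoFun_add (g : C1) (v w : F8) : rhoFun g (v + w) = rhoFun g v + rhoFun g w := by
  conv_lhs => rw [← cq_sec v, ← cq_sec w, ← cq_mul (sec_mem v) (sec_mem w)]
  rw [rhoFun_cq g (mul_mem (sec_mem v) (sec_mem w)), rhoFun, rhoFun,
    ← cq_mul (conj_mem_ker (sec_mem v) g) (conj_mem_ker (sec_mem w) g)]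
  congr 1
  group

theorem rhoFun_q (g : C1) (v : F8) : Q8 (rhoFun g v) = Q8 v := by
  have hy := sec_mem v
  conv_rhs => rw [← cq_sec v, ← sq2_q hy]
  rw [rhoFun, ← sq2_q (conj_mem_ker hy g)]
  refine sq2_eq (conj_mem_ker hy g) ?_
  calc g * sec v * g⁻¹ * (g * sec v * g⁻¹) = g * (sec v * sec v) * g⁻¹ := by group
    _ = z2 (sq2 (sec v)) := by rw [sq2_spec hy, z2_central, mul_inv_cancel_right]

/-- The linear map. -/
noncomputable def rhoEquiv (g : C1) : F8 ≃ₗ[ZMod 2] F8 :=
  { (AddMonoidHom.mk' (rhoFun g) (rhoFun_add g)).toZModLinearMap 2 with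
    invFun := rhoFun g⁻¹
    left_inv := fun v => by
      show rhoFun g⁻¹ (rhoFun g v) = v
      rw [← rhoFun_mul, inv_mul_cancel, rhoFun_one]
    right_inv := fun v => by
      show rhoFun g (rhoFun g⁻¹ v) = v
      rw [← rhoFun_mul, mul_inv_cancel, rhoFun_one] }

/-- The representation. -/
noncomputable def rho : C1 →* H5.orth Q8 :=
  MonoidHom.mk' (fun g => ⟨rhoEquiv g, fun v => rhoFun_q g v⟩)
    fun g h => H5.orth_ext fun v => rhoFun_mul g h v

theorem rho_cq (g : C1) {x : C1} (hx : x ∈ phi.ker) :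
    (rho g : F8 ≃ₗ[ZMod 2] F8) (cq x) = cq (g * x * g⁻¹) := rhoFun_cq g hx

theorem ker_le : phi.ker ≤ rho.ker := fun g hg => MonoidHom.mem_ker.2 (H5.orth_ext fun v => by
  show rhoFun g v = v
  have e := cm_spec hg (sec_mem v)
  rw [rhoFun, e, mul_assoc, mul_assoc, mul_inv_cancel, mul_one, cq_mul (z2_mem _) (sec_mem v),
    cq_z2, zero_add, cq_sec])

/-- The first vector of the rotation. -/
def uW : F8 := Sum.elim ![1, 1, 0, 1] ![0, 1, 0, 0]

/-- The second vector. -/
def vW : F8 := Sum.elim ![1, 1, 1, 1] ![0, 1, 1, 1]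

/-- A reflection as a plain function. -/
def rf (w x : F8) : F8 := fun j => x j - pol w x * w j

/-- The rotation. -/
def rot (x : F8) : F8 := rf uW (rf vW x)

theorem q_uW : Cfsg.quadFormPlus 4 (ZMod 2) uW = 1 := by decide +kernel

theorem q_vW : Cfsg.quadFormPlus 4 (ZMod 2) vW = 1 := by decide +kernel

theorem refl_eq_rf {w : F8} (hw : Cfsg.quadFormPlus 4 (ZMod 2) w = 1) (x : F8) :
    (H5.refl Q8 w : F8 ≃ₗ[ZMod 2] F8) x = rf w x := by
  rw [H5.refl_apply, ← pol_eq, H5.coe_qPlus, hw, inv_one, one_mul]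
  rfl

/-- The rotation as an isometry. -/
def R0 : H5.orth Q8 := H5.refl Q8 uW * H5.refl Q8 vW

theorem R0_apply (x : F8) : (R0 : F8 ≃ₗ[ZMod 2] F8) x = rot x := by
  rw [R0, H5.orth_mul_apply, refl_eq_rf q_vW, refl_eq_rf q_uW]
  rfl

theorem rot_basis : ∀ i : Fin 8, rot (fun j => if jn j = i then 1 else 0) = vec (colM i.1) := by
  decide +kernel

theorem rho_tA : rho tA = R0 := by
  refine Subtype.ext (LinearEquiv.toLinearMap_injective ((Pi.basisFun (ZMod 2) J).ext fun j => ?_))
  show (rho tA : F8 ≃ₗ[ZMod 2] F8) _ = (R0 : F8 ≃ₗ[ZMod 2] F8) _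
  have e : (Pi.basisFun (ZMod 2) J) j = cq (tY (jn j)) := by
    funext k
    rw [cq_tY, Pi.basisFun_apply, Pi.single_apply]
    by_cases h : k = j
    · simp [h]
    · simp [h, show jn k ≠ jn j from fun e => h (jn_inj _ _ e)]
  rw [e, rho_cq tA (tY_mem _), cq_tZ, cq_tY, R0_apply, rot_basis]

theorem rot_ne : ∃ x, rot x ≠ x := by decide +kernel

theorem rho_tA_ne_one : rho tA ≠ 1 := by
  intro h
  obtain ⟨x, hx⟩ := rot_ne
  refine hx ?_
  rw [← R0_apply, ← rho_tA, h]
  rfl

theorem ker_rho : rho.ker = phi.ker := by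
  refine le_antisymm ?_ ker_le
  have hn : (rho.ker.map phi).Normal := rho.normal_ker.map phi phi_surjective
  rcases simple_Om.eq_bot_or_eq_top_of_normal _ hn with h | h
  · exact (Subgroup.map_eq_bot_iff _).1 h
  · exfalso
    have htop : rho.ker = ⊤ := by
      have e := congrArg (Subgroup.comap phi) h
      rwa [Subgroup.comap_map_eq, sup_eq_left.mpr ker_le, Subgroup.comap_top] at e
    exact rho_tA_ne_one (MonoidHom.mem_ker.1 (htop ▸ Subgroup.mem_top tA))

theorem range_rho : rho.range = commutator (H5.orth Q8) := by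
  haveI := simple_Om
  haveI := finite_C1
  have hcard : Nat.card rho.range = 174182400 := by
    rw [← Subgroup.index_ker, ker_rho, Subgroup.index_ker, MonoidHom.range_eq_top.2 phi_surjective,
      Subgroup.card_top, card_Om]
  let e : Om ≃* rho.range :=
    ((QuotientGroup.quotientKerEquivOfSurjective phi phi_surjective).symm.trans
      (QuotientGroup.quotientMulEquivOfEq ker_rho.symm)).trans
      (QuotientGroup.quotientKerEquivRange rho)
  haveI : IsSimpleGroup rho.range := e.symm.isSimpleGroup_congr.2 simple_Om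
  have hp : commutator ↥rho.range = ⊤ := by
    rcases IsSimpleGroup.eq_bot_or_eq_top_of_normal (commutator ↥rho.range) inferInstance with h | h
    · exfalso
      let inst : CommGroup rho.range :=
        { (inferInstance : Group rho.range) with
          mul_comm := fun a b => commutatorElement_eq_one_iff_mul_comm.1 (by
            have := Subgroup.commutator_mem_commutator (Subgroup.mem_top a) (Subgroup.mem_top b)
            rwa [← commutator_def, h, Subgroup.mem_bot] at this) }
      have hpr := (IsSimpleGroup.prime_card (α := rho.range) : (Nat.card rho.range).Prime)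
      rw [hcard] at hpr
      norm_num at hpr
    · exact h
  have hle : rho.range ≤ commutator (H5.orth Q8) := by
    rw [← Subgroup.range_subtype rho.range, MonoidHom.range_eq_map, ← hp, commutator_def,
      Subgroup.map_commutator, commutator_def]
    exact Subgroup.commutator_mono le_top le_top
  exact Subgroup.eq_of_le_of_card_ge hle (by rw [hcard, card_Omega])

end Cfsg.Agent.H21.SuzSection
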