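import Cfsg.Agent.H21.SuzSection.Rho

/-! The orthogonal group of minus type in dimension six inside that of plus type in dimension eight. -/

set_option autoImplicit false

namespace Cfsg.Agent.H21.SuzSection

open Cfsg.Agent Finset H14 H18.CoOne
open QuadraticMap (polarBilin)

/-- Index type in dimension six. -/
abbrev J6 : Type := (Fin 2 ⊕ Fin 2) ⊕ Fin 2

/-- Vectors in dimension six. -/
abbrev F6 : Type := J6 → ZMod 2

/-- The form. -/
abbrev Q6 : QuadraticForm (ZMod 2) F6 := H5.qMinus 2 (ZMod 2) 1 1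

/-- The form, as a plain function. -/
def q6 (y : F6) : ZMod 2 := Cfsg.quadFormMinus 2 (ZMod 2) 1 1 y

theorem q6_eq (y : F6) : q6 y = Q6 y := by rw [q6, H5.coe_qMinus]

/-- The polar form, as a plain function. -/
def pol6 (x y : F6) : ZMod 2 := q6 (x + y) - q6 x - q6 y

theorem pol6_eq (x y : F6) : pol6 x y = QuadraticMap.polar Q6 x y := by
  simp only [pol6, q6_eq, QuadraticMap.polar]

/-- A basis of the fixed space. -/
def embB : J6 → F8 := fun k =>
  vec ([1, 12, 18, 72, 35, 198].getD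
    (Sum.elim (Sum.elim (fun i : Fin 2 => i.1) (fun i => i.1 + 2)) (fun i => i.1 + 4) k) 0)

/-- The partner of a coordinate. -/
def partner : J6 → J6 := Sum.elim (fun i => Sum.inl i.swap) (fun i => Sum.inr (i + 1))

/-- The embedding. -/
def emb6 (y : F6) : F8 := fun j => ∑ k, y k * embB k j

/-- The projection. -/
def prj (x : F8) : F6 := fun k => pol x (embB (partner k))

/-- A vector of the rotated plane. -/
def wv (a b : ZMod 2) : F8 := fun j => a * uW j + b * vW j

/-- The plane part. -/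
def wp (x : F8) : F8 := wv (pol x vW) (pol x uW)

theorem prj_emb : ∀ y, prj (emb6 y) = y := by decide +kernel

theorem decomp : ∀ x, x = emb6 (prj x) + wp x := by decide +kernel

theorem prj_wv : ∀ a b, prj (wv a b) = 0 := by decide +kernel

theorem wp_emb : ∀ y, wp (emb6 y) = 0 := by decide +kernel

theorem wp_wv : ∀ a b, wp (wv a b) = wv a b := by decide +kernel

theorem q_decomp : ∀ y a b,
    Cfsg.quadFormPlus 4 (ZMod 2) (emb6 y + wv a b) = q6 y + Cfsg.quadFormPlus 4 (ZMod 2) (wv a b) := by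
  decide +kernel

theorem rot_fixed : ∀ x, rot x = x → x = emb6 (prj x) := by decide +kernel

theorem rot_emb : ∀ y, rot (emb6 y) = emb6 y := by decide +kernel

theorem prj_rot : ∀ x, prj (rot x) = prj x := by decide +kernel

theorem wp_rot : ∀ x, wp (rot x) = rot (wp x) := by decide +kernel

theorem emb6_add (y y' : F6) : emb6 (y + y') = emb6 y + emb6 y' := by
  funext j; simp [emb6, add_mul, sum_add_distrib]

theorem prj_add (x x' : F8) : prj (x + x') = prj x + prj x' :=
  funext fun _ => pol_add_left _ _ _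

theorem wp_add (x x' : F8) : wp (x + x') = wp x + wp x' := by
  funext j; simp [wp, wv, pol_add_left, add_mul]; abel

theorem rot_eq (x : F8) : rot x = (R0 : F8 ≃ₗ[ZMod 2] F8) x := (R0_apply x).symm

/-! ### Extension by the identity on the plane -/

/-- The extended map. -/
def extFun (s : H5.orth Q6) (x : F8) : F8 := emb6 ((s : F6 ≃ₗ[ZMod 2] F6) (prj x)) + wp x

theorem prj_extFun (s : H5.orth Q6) (x : F8) :
    prj (extFun s x) = (s : F6 ≃ₗ[ZMod 2] F6) (prj x) := by
  rw [extFun, prj_add, prj_emb, wp, prj_wv, add_zero]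

theorem wp_extFun (s : H5.orth Q6) (x : F8) : wp (extFun s x) = wp x := by
  rw [extFun, wp_add, wp_emb, zero_add, wp.eq_1 x, wp_wv]

theorem extFun_mul (s t : H5.orth Q6) (x : F8) : extFun (s * t) x = extFun s (extFun t x) := by
  rw [extFun.eq_1 s (extFun t x), prj_extFun, wp_extFun, extFun, H5.orth_mul_apply]

theorem extFun_one (x : F8) : extFun 1 x = x := (decomp x).symm

theorem extFun_add (s : H5.orth Q6) (x x' : F8) : extFun s (x + x') = extFun s x + extFun s x' := by
  simp only [extFun, prj_add, wp_add, map_add, emb6_add]; abel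

theorem extFun_q (s : H5.orth Q6) (x : F8) : Q8 (extFun s x) = Q8 x := by
  conv_rhs => rw [decomp x]
  rw [extFun, H5.coe_qPlus, wp, q_decomp, q_decomp, q6_eq, q6_eq, H5.orth_map]

/-- The linear map. -/
noncomputable def extEquiv (s : H5.orth Q6) : F8 ≃ₗ[ZMod 2] F8 :=
  { (AddMonoidHom.mk' (extFun s) (extFun_add s)).toZModLinearMap 2 with
    invFun := extFun s⁻¹
    left_inv := fun v => by
      show extFun s⁻¹ (extFun s v) = v
      rw [← extFun_mul, inv_mul_cancel, extFun_one]
    right_inv := fun v => by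
      show extFun s (extFun s⁻¹ v) = v
      rw [← extFun_mul, mul_inv_cancel, extFun_one] }

/-- The extension homomorphism. -/
noncomputable def extHom : H5.orth Q6 →* H5.orth Q8 :=
  MonoidHom.mk' (fun s => ⟨extEquiv s, fun v => extFun_q s v⟩)
    fun s t => H5.orth_ext fun v => extFun_mul s t v

theorem rot_sum : ∀ y a b, rot (emb6 y + wv a b) = emb6 y + rot (wv a b) := by decide +kernel

theorem extHom_comm (s : H5.orth Q6) : extHom s * R0 = R0 * extHom s := H5.orth_ext fun x => by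
  rw [H5.orth_mul_apply, H5.orth_mul_apply, R0_apply, R0_apply]
  show extFun s (rot x) = rot (extFun s x)
  rw [extFun, extFun, prj_rot, wp_rot, wp, rot_sum]

/-! ### The centraliser of the rotation -/

/-- The centraliser. -/
abbrev Cc : Subgroup (H5.orth Q8) := Subgroup.centralizer ({R0} : Set (H5.orth Q8))

theorem comm_R0 {h : H5.orth Q8} (hh : h ∈ Cc) : h * R0 = R0 * h :=
  Subgroup.mem_centralizer_singleton_iff.1 hh

theorem apply_emb {h : H5.orth Q8} (hh : h ∈ Cc) (y : F6) :
    (h : F8 ≃ₗ[ZMod 2] F8) (emb6 y) = emb6 (prj ((h : F8 ≃ₗ[ZMod 2] F8) (emb6 y))) := by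
  refine rot_fixed _ ?_
  rw [← R0_apply, ← H5.orth_mul_apply, ← comm_R0 hh, H5.orth_mul_apply, R0_apply, rot_emb]

/-- The restricted map. -/
def resFun (h : H5.orth Q8) (y : F6) : F6 := prj ((h : F8 ≃ₗ[ZMod 2] F8) (emb6 y))

theorem resFun_mul {g h : H5.orth Q8} (hh : h ∈ Cc) (y : F6) :
    resFun (g * h) y = resFun g (resFun h y) := by
  unfold resFun
  rw [H5.orth_mul_apply]
  conv_lhs => rw [apply_emb hh y]

theorem resFun_one (y : F6) : resFun 1 y = y := prj_emb y

theorem resFun_add (g : H5.orth Q8) (y y' : F6) :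
    resFun g (y + y') = resFun g y + resFun g y' := by
  simp only [resFun, emb6_add, map_add, prj_add]

theorem q_emb : ∀ y, Cfsg.quadFormPlus 4 (ZMod 2) (emb6 y) = q6 y := by decide +kernel

theorem resFun_q {h : H5.orth Q8} (hh : h ∈ Cc) (y : F6) : Q6 (resFun h y) = Q6 y := by
  rw [← q6_eq, ← q6_eq, ← q_emb, ← q_emb, resFun, ← apply_emb hh, ← H5.coe_qPlus, H5.orth_map]

/-- The linear map. -/
noncomputable def resEquiv (h : Cc) : F6 ≃ₗ[ZMod 2] F6 :=
  { (AddMonoidHom.mk' (resFun h.1) (resFun_add h.1)).toZModLinearMap 2 with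
    invFun := resFun h.1⁻¹
    left_inv := fun v => by
      show resFun h.1⁻¹ (resFun h.1 v) = v
      rw [← resFun_mul h.2, inv_mul_cancel, resFun_one]
    right_inv := fun v => by
      show resFun h.1 (resFun h.1⁻¹ v) = v
      rw [← resFun_mul (inv_mem h.2), mul_inv_cancel, resFun_one] }

/-- The restriction to the fixed space. -/
noncomputable def resHom : Cc →* H5.orth Q6 :=
  MonoidHom.mk' (fun h => ⟨resEquiv h, fun v => resFun_q h.2 v⟩)
    fun g h => H5.orth_ext fun v => resFun_mul h.2 v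

theorem resHom_apply (h : Cc) (y : F6) :
    (resHom h : F6 ≃ₗ[ZMod 2] F6) y = prj ((h.1 : F8 ≃ₗ[ZMod 2] F8) (emb6 y)) := rfl

theorem resHom_ext (s : H5.orth Q6) :
    resHom ⟨extHom s, Subgroup.mem_centralizer_singleton_iff.2 (extHom_comm s)⟩ = s :=
  H5.orth_ext fun y => by
    show prj (extFun s (emb6 y)) = _
    rw [prj_extFun, prj_emb]

theorem plane_cases : ∀ x, (∀ y : F6, pol x (emb6 y) = 0) → Cfsg.quadFormPlus 4 (ZMod 2) x = 1 →
    x = uW ∨ x = rot uW ∨ x = rot (rot uW) := by decide +kernel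

theorem pol_uW : ∀ y : F6, pol uW (emb6 y) = 0 := by decide +kernel

theorem vW_rot : rot uW = vW ∨ rot (rot uW) = vW := by decide +kernel

theorem mem_zpowers_of_res {h : Cc} (hh : resHom h = 1) : h.1 ∈ Subgroup.zpowers R0 := by
  have hfix : ∀ y, (h.1 : F8 ≃ₗ[ZMod 2] F8) (emb6 y) = emb6 y := fun y => by
    rw [apply_emb h.2 y, ← resHom_apply, hh]
    rfl
  have key : ∀ k : H5.orth Q8, k ∈ Cc → (∀ y, (k : F8 ≃ₗ[ZMod 2] F8) (emb6 y) = emb6 y) →
      (k : F8 ≃ₗ[ZMod 2] F8) uW = uW → k = 1 := by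
    intro k hk hky hku
    have hr : ∀ x, (k : F8 ≃ₗ[ZMod 2] F8) (rot x) = rot ((k : F8 ≃ₗ[ZMod 2] F8) x) := fun x => by
      rw [← R0_apply, ← R0_apply, ← H5.orth_mul_apply, ← H5.orth_mul_apply, comm_R0 hk]
    have hkv : (k : F8 ≃ₗ[ZMod 2] F8) vW = vW := by
      rcases vW_rot with e | e <;> simp only [← e, hr, hku]
    refine H5.orth_ext fun x => ?_
    show _ = x
    conv_rhs => rw [decomp x]
    rw [decomp x, map_add, hky, ← decomp]
    congr 1
    rw [show wp x = pol x vW • uW + pol x uW • vW from rfl, map_add, map_smul, map_smul, hku, hkv]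
  have hu : (h.1 : F8 ≃ₗ[ZMod 2] F8) uW = uW ∨ (h.1 : F8 ≃ₗ[ZMod 2] F8) uW = rot uW ∨
      (h.1 : F8 ≃ₗ[ZMod 2] F8) uW = rot (rot uW) := by
    refine plane_cases _ (fun y => ?_) ?_
    · rw [← hfix y, pol_eq, H5.orth_polar, ← pol_eq, pol_uW]
    · rw [← H5.coe_qPlus, H5.orth_map, H5.coe_qPlus, q_uW]
  have hR : R0 ∈ Cc := Subgroup.mem_centralizer_singleton_iff.2 rfl
  have hRy : ∀ n : ℕ, ∀ y, ((R0 ^ n : H5.orth Q8) : F8 ≃ₗ[ZMod 2] F8) (emb6 y) = emb6 y := by
    intro n y
    induction n with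
    | zero => rfl
    | succ n ih => rw [pow_succ', H5.orth_mul_apply, ih, R0_apply, rot_emb]
  have main : ∀ n : ℕ, (h.1 : F8 ≃ₗ[ZMod 2] F8) uW = ((R0 ^ n : H5.orth Q8) : F8 ≃ₗ[ZMod 2] F8) uW →
      h.1 ∈ Subgroup.zpowers R0 := by
    intro n hn
    have h1 := key ((R0 ^ n)⁻¹ * h.1) (mul_mem (inv_mem (pow_mem hR n)) h.2)
      (fun y => by
        rw [H5.orth_mul_apply, hfix]
        conv_lhs => rw [← hRy n y]
        rw [H5.orth_inv_apply_apply])
      (by rw [H5.orth_mul_apply, hn, H5.orth_inv_apply_apply])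
    rw [inv_mul_eq_one] at h1
    rw [← h1]
    exact Subgroup.npow_mem_zpowers R0 n
  rcases hu with e | e | e
  · exact main 0 (by rw [pow_zero]; exact e)
  · exact main 1 (by rw [pow_one, R0_apply, e])
  · exact main 2 (by rw [pow_two, H5.orth_mul_apply, R0_apply, R0_apply, e])

/-! ### The derived subgroups -/

theorem hab : ∀ z w : ZMod 2, z ^ 2 + 1 * z * w + 1 * w ^ 2 = 0 → z = 0 ∧ w = 0 := by decide

theorem nondeg6 : (polarBilin Q6).Nondegenerate := H5.qMinus_nondegenerate 2 hab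

theorem finrank6 : Module.finrank (ZMod 2) F6 = 6 := by simp

theorem finrank8 : Module.finrank (ZMod 2) F8 = 8 := by simp

theorem pair8 {a b : F8} (ha : Cfsg.quadFormPlus 4 (ZMod 2) a = 1)
    (hb : Cfsg.quadFormPlus 4 (ZMod 2) b = 1) :
    H5.refl Q8 a * H5.refl Q8 b ∈ commutator (H5.orth Q8) := by
  have ha' : Q8 a ≠ 0 := by rw [H5.coe_qPlus, ha]; exact one_ne_zero
  have hb' : Q8 b ≠ 0 := by rw [H5.coe_qPlus, hb]; exact one_ne_zero
  have h := (H5.list_prod_mem_commutator_iff (H5.qPlus_nondegenerate (F := ZMod 2) 4)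
    (Or.inr (by rw [finrank8]; norm_num)) (vs := [a, b]) (by simp [ha', hb'])).2
    ⟨by norm_num, ⟨1, by simp [H5.coe_qPlus, ha, hb]⟩⟩
  simpa using h

theorem single8 {a : F8} (ha : Cfsg.quadFormPlus 4 (ZMod 2) a = 1) :
    H5.refl Q8 a ∉ commutator (H5.orth Q8) := by
  intro hmem
  have ha' : Q8 a ≠ 0 := by rw [H5.coe_qPlus, ha]; exact one_ne_zero
  have h := (H5.list_prod_mem_commutator_iff (H5.qPlus_nondegenerate (F := ZMod 2) 4)
    (Or.inr (by rw [finrank8]; norm_num)) (vs := [a]) (by simp [ha'])).1 (by simpa using hmem)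
  simp at h

theorem pair6 {a b : F6} (ha : q6 a = 1) (hb : q6 b = 1) :
    H5.refl Q6 a * H5.refl Q6 b ∈ commutator (H5.orth Q6) := by
  have ha' : Q6 a ≠ 0 := by rw [← q6_eq, ha]; exact one_ne_zero
  have hb' : Q6 b ≠ 0 := by rw [← q6_eq, hb]; exact one_ne_zero
  have h := (H5.list_prod_mem_commutator_iff nondeg6
    (Or.inr (by rw [finrank6]; norm_num)) (vs := [a, b]) (by simp [ha', hb'])).2
    ⟨by norm_num, ⟨1, by simp [← q6_eq, ha, hb]⟩⟩
  simpa using h

theorem R0_mem : R0 ∈ commutator (H5.orth Q8) := pair8 q_uW q_vW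

theorem extHom_commutator {s : H5.orth Q6} (hs : s ∈ commutator (H5.orth Q6)) :
    extHom s ∈ commutator (H5.orth Q8) := by
  have h := Subgroup.mem_map_of_mem extHom hs
  rw [commutator_def, Subgroup.map_commutator] at h
  exact Subgroup.commutator_mono le_top le_top h

/-- A reflection in dimension six as a plain function. -/
def rf6 (a y : F6) : F6 := fun k => y k - pol6 a y * a k

theorem refl6_apply {a : F6} (ha : q6 a = 1) (y : F6) :
    (H5.refl Q6 a : F6 ≃ₗ[ZMod 2] F6) y = rf6 a y := by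
  rw [H5.refl_apply, ← pol6_eq, ← q6_eq, ha, inv_one, one_mul]
  rfl

theorem pol_emb : ∀ a x, pol (emb6 a) x = pol6 a (prj x) := by decide +kernel

theorem emb6_rf6 (a y : F6) : emb6 (rf6 a y) = emb6 y - pol6 a y • emb6 a := by
  funext j
  simp only [emb6, rf6, Pi.sub_apply, Pi.smul_apply, smul_eq_mul, sub_mul, sum_sub_distrib,
    mul_sum, mul_assoc]

theorem extHom_refl {a : F6} (ha : q6 a = 1) :
    extHom (H5.refl Q6 a) = H5.refl Q8 (emb6 a) := H5.orth_ext fun x => by
  show extFun _ x = _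
  rw [extFun, refl6_apply ha, emb6_rf6, H5.refl_apply, ← pol_eq, H5.coe_qPlus, q_emb, ha, inv_one,
    one_mul, pol_emb]
  conv_rhs => rw [decomp x]
  rw [decomp x, sub_add_eq_add_sub]
  simp only [← decomp]

theorem ns6 : ∃ a, q6 a = 1 := ⟨fun k => if k = Sum.inr 0 then 1 else 0, by decide +kernel⟩

theorem commutator6_of_ext {s : H5.orth Q6} (hs : extHom s ∈ commutator (H5.orth Q8)) :
    s ∈ commutator (H5.orth Q6) := by
  by_contra hn
  obtain ⟨a, ha⟩ := ns6
  have hidx : (commutator (H5.orth Q6)).index = 2 :=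
    H5.commutator_index_two (by decide) nondeg6 (Or.inr (by rw [finrank6]; norm_num))
      ⟨a, by rw [← q6_eq, ha]; exact one_ne_zero⟩
  have hq : Cfsg.quadFormPlus 4 (ZMod 2) (emb6 a) = 1 := by rw [q_emb, ha]
  have hr : H5.refl Q6 a ∉ commutator (H5.orth Q6) := fun h => by
    have := extHom_commutator h
    rw [extHom_refl ha] at this
    exact single8 hq this
  have h1 : H5.refl Q6 a * s ∈ commutator (H5.orth Q6) :=
    (Subgroup.mul_mem_iff_of_index_two hidx).2 ⟨fun h => absurd h hr, fun h => absurd h hn⟩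
  have h2 := extHom_commutator h1
  rw [map_mul, extHom_refl ha] at h2
  exact single8 hq ((Subgroup.mul_mem_cancel_right _ hs).1 h2)

theorem resHom_mem {h : Cc} (hh : h.1 ∈ commutator (H5.orth Q8)) :
    resHom h ∈ commutator (H5.orth Q6) := by
  set e : Cc := ⟨extHom (resHom h), Subgroup.mem_centralizer_singleton_iff.2 (extHom_comm _)⟩
  have h1 : resHom (e⁻¹ * h) = 1 := by rw [map_mul, map_inv, resHom_ext, inv_mul_cancel]
  have h2 := Subgroup.zpowers_le.2 R0_mem (mem_zpowers_of_res h1)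
  refine commutator6_of_ext ((inv_mem_iff (x := extHom (resHom h))).1 ?_)
  exact (Subgroup.mul_mem_cancel_right _ hh).1 h2

theorem center6 : Subgroup.center (commutator (H5.orth Q6)) = ⊥ := by
  refine eq_bot_iff.2 fun g hg => ?_
  obtain ⟨t, ht⟩ := (H5.mem_center_iff nondeg6 (by rw [finrank6]; norm_num)
    (Or.inr (by rw [finrank6]; norm_num))).1 hg
  rw [Subgroup.mem_bot]
  refine Subtype.ext (H5.orth_ext fun x => ?_)
  rw [ht x]
  rcases zmod2_cases t with rfl | rfl
  · have h1 := ht (Pi.single (Sum.inr 0) 1)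
    rw [zero_smul] at h1
    have h2 := congrFun (((g : H5.orth Q6) : F6 ≃ₗ[ZMod 2] F6).injective
      (h1.trans (map_zero _).symm)) (Sum.inr 0)
    simp at h2
  · rw [one_smul]; rfl

theorem simple_six : IsSimpleGroup (commutator (H5.orth Q6)) :=
  haveI := H5.isSimpleGroup_commutator_mod_center nondeg6 (by rw [finrank6]; norm_num)
  (((QuotientGroup.quotientMulEquivOfEq center6).trans
    QuotientGroup.quotientBot).isSimpleGroup_congr).1 this

theorem not_comm_six : ¬ IsMulCommutative (commutator (H5.orth Q6)) := by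
  intro h
  have hc : Subgroup.center (commutator (H5.orth Q6)) = ⊤ :=
    Subgroup.eq_top_iff' _ |>.2 fun g => Subgroup.mem_center_iff.2 fun k => h.is_comm.comm k g
  haveI := simple_six
  rw [center6] at hc
  exact bot_ne_top hc

/-! ### Irreducibility -/

theorem exists_perp : ∀ x : F6, ∃ b, q6 b = 1 ∧ pol6 b x = 0 := by decide +kernel

theorem exists_nonperp : ∀ x : F6, x ≠ 0 → ∃ a, q6 a = 1 ∧ pol6 a x = 1 := by decide +kernel

set_option synthInstance.maxSize 4000 in
set_option synthInstance.maxHeartbeats 400000 in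
theorem connect : ∀ a : F6, q6 a = 1 → ∀ b : F6, q6 b = 1 →
    pol6 b a = 1 ∨ ∃ c, q6 c = 1 ∧ pol6 c a = 1 ∧ pol6 b c = 1 := by
  decide +kernel

theorem ns_span : ∀ x : F6, x = 0 ∨ ∃ a, q6 a = 1 ∧ (x = a ∨ q6 (x + a) = 1) := by decide +kernel

/-- An invariant set closed under addition with a non-zero element is everything. -/
theorem irreducible (U : AddSubgroup F6)
    (hU : ∀ s ∈ commutator (H5.orth Q6), ∀ y ∈ U, (s : F6 ≃ₗ[ZMod 2] F6) y ∈ U)
    (hne : ∃ x ∈ U, x ≠ 0) : ∀ y, y ∈ U := by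
  have step : ∀ x ∈ U, ∀ a, q6 a = 1 → pol6 a x = 1 → a ∈ U := by
    intro x hx a ha hax
    obtain ⟨b, hb, hbx⟩ := exists_perp x
    have h := hU _ (pair6 ha hb) x hx
    rw [H5.orth_mul_apply, refl6_apply hb, show rf6 b x = x by funext k; simp [rf6, hbx],
      refl6_apply ha, show rf6 a x = x - a by funext k; simp [rf6, hax]] at h
    have := U.sub_mem hx h
    rwa [sub_sub_cancel] at this
  obtain ⟨x, hx, hx0⟩ := hne
  obtain ⟨a, ha, hax⟩ := exists_nonperp x hx0
  have haU := step x hx a ha hax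
  have hns : ∀ b, q6 b = 1 → b ∈ U := by
    intro b hb
    rcases connect a ha b hb with e | ⟨c, hc, hca, hbc⟩
    · exact step a haU b hb e
    · exact step c (step a haU c hc hca) b hb hbc
  intro y
  rcases ns_span y with rfl | ⟨b, hb, rfl | hyb⟩
  · exact zero_mem U
  · exact hns _ hb
  · simpa using U.sub_mem (hns _ hyb) (hns b hb)

end Cfsg.Agent.H21.SuzSection
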